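import Mathlib
import Cfsg.Agent.Chev.TwF4
import Cfsg.Agent.FGS.Basic

/-! The large Ree groups have no section `7 : 3`, hence no section `A_r` with `r ≥ 7`. -/

set_option autoImplicit false
set_option linter.unusedSectionVars false
set_option maxHeartbeats 400000
set_option maxRecDepth 100000

namespace Cfsg.Agent.Chev
open Cfsg.Lie Cfsg.Agent.BN StSys Tw

theorem exists_lift_fusion {G Q : Type*} [Group G] [Finite G] [Group Q] (π : G →* Q)
    (hπ : Function.Surjective π) {p : ℕ} [Fact p.Prime] {a b : Q} (ha : orderOf a = p)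
    (hb : b ∈ Subgroup.normalizer (Subgroup.zpowers a : Set Q)) :
    ∃ P : Subgroup G, IsPGroup p P ∧ ∃ y ∈ Subgroup.normalizer (P : Set G), ∃ x ∈ P, π x = a ∧
      π y * a * (π y)⁻¹ = b * a * b⁻¹ := by
  let M : Subgroup G := (Subgroup.zpowers a).comap π
  obtain ⟨y0, rfl⟩ := hπ b
  have hy0 : ∀ g, g ∈ M ↔ y0 * g * y0⁻¹ ∈ M := fun g => by
    simp only [M, Subgroup.mem_comap, map_mul, map_inv]
    exact Subgroup.mem_normalizer_iff.mp hb _
  let P : Sylow p M := default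
  let φ : M ≃* M :=
    { toFun := fun g => ⟨y0 * g * y0⁻¹, (hy0 g).1 g.2⟩
      invFun := fun g => ⟨y0⁻¹ * g * y0, (hy0 _).2 (by simpa [mul_assoc] using g.2)⟩
      left_inv := fun g => by ext; simp [mul_assoc]
      right_inv := fun g => by ext; simp [mul_assoc]
      map_mul' := fun g h => by ext; simp [mul_assoc] }
  obtain ⟨m, hm⟩ := MulAction.exists_smul_eq M ((φ : MulAut M) • P) P
  have hm' : ∀ g : M, g ∈ (P : Subgroup M) ↔ m * φ g * m⁻¹ ∈ (P : Subgroup M) := fun g => by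
    conv_rhs => rw [← hm]
    rw [Sylow.coe_subgroup_smul, Sylow.pointwise_smul_def, Subgroup.mem_pointwise_smul_iff_inv_smul_mem,
      Subgroup.mem_pointwise_smul_iff_inv_smul_mem]
    simp [mul_assoc]
  let f : M →* Subgroup.zpowers a := (π.comp M.subtype).codRestrict _ fun g => g.2
  have hf : Function.Surjective f := fun c => by
    obtain ⟨g, hg⟩ := hπ c
    exact ⟨⟨g, by simp [M, hg]⟩, Subtype.ext hg⟩
  have hz : IsPGroup p (Subgroup.zpowers a) := IsPGroup.of_card (n := 1) (by simp [ha])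
  have htop : ((P.mapSurjective hf : Sylow p _) : Subgroup (Subgroup.zpowers a)) = ⊤ :=
    ((P.mapSurjective hf).3 (hz.to_subgroup ⊤) le_top).symm
  have : (⟨a, Subgroup.mem_zpowers a⟩ : Subgroup.zpowers a) ∈ (P : Subgroup M).map f := by
    rw [← Sylow.coe_mapSurjective hf, htop]; trivial
  obtain ⟨x, hx, hxa⟩ := this
  refine ⟨(P : Subgroup M).map M.subtype, P.2.map _, (m : G) * y0, ?_, x, ⟨x, hx, rfl⟩,
    congrArg Subtype.val hxa, ?_⟩
  · rw [Subgroup.mem_normalizer_iff]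
    intro g
    constructor
    · rintro ⟨g, hg, rfl⟩
      exact ⟨_, (hm' g).1 hg, by simp [φ, mul_assoc]⟩
    · rintro ⟨h, hh, e⟩
      have hg : g ∈ M := by
        have : g = y0⁻¹ * ((m : G)⁻¹ * h * m) * y0 := by
          simp only [Subgroup.coe_subtype] at e; rw [e]; group
        rw [hy0, this]
        simpa [mul_assoc] using mul_mem (mul_mem (inv_mem m.2) h.2) m.2
      refine ⟨⟨g, hg⟩, (hm' _).2 ?_, rfl⟩
      have : m * φ ⟨g, hg⟩ * m⁻¹ = h := by
        ext; simp only [Subgroup.coe_subtype] at e; simp [φ, e, mul_assoc]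
      rw [this]; exact hh
  · have h1 : π y0 * a * (π y0)⁻¹ ∈ Subgroup.zpowers a :=
      (Subgroup.mem_normalizer_iff.mp hb _).1 (Subgroup.mem_zpowers a)
    have h2 : π m ∈ Subgroup.zpowers a := m.2
    obtain ⟨i, hi⟩ := h1
    obtain ⟨j, hj⟩ := h2
    simp only at hi hj
    calc π (m * y0) * a * (π (m * y0))⁻¹ = π m * (π y0 * a * (π y0)⁻¹) * (π m)⁻¹ := by
          simp [mul_assoc]
      _ = _ := by rw [← hi, ← hj]; group

section
variable {D : ChevalleyDatum} [g : Good2 D] {F : Type*} [Field F] {G : Type*} [Group G]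
  {S : StSys D F G} {σ : Sym D} {T : Tw S σ}

/-- An element of the twisted group acts on the elements of `H` it sends into `H` as an element
of `N` does. -/
theorem exists_N_act {y : G} (hy : y ∈ T.Fx) : ∃ n ∈ S.N ⊓ T.Fx, ∀ s ∈ S.H, y * s * y⁻¹ ∈ S.H →
    y * s * y⁻¹ = n * s * n⁻¹ := by
  obtain ⟨w, hw⟩ := exists_cell hy.1
  obtain ⟨u, hu, a, ha, hm, v, hv, rfl⟩ := exists_normal' hw
  refine ⟨a, ⟨ha, (normal_mem hu ha hm hv hy).2.1⟩, fun s hs hs' => ?_⟩
  set s' := u * a * v * s * (u * a * v)⁻¹ with e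
  have := (normal_unique' hu (H_conj_mem hs' hu) (mul_mem ha (S.H_le_N hs))
    (mul_mem (S.H_le_N hs') ha) (by simpa using hm.mul (mono_of_mem_H hs))
    (by simpa using (mono_of_mem_H hs').mul hm) (H_conj_mem' hs hv) hv (by rw [e]; group)).2.1
  rw [eq_mul_inv_iff_mul_eq, this]
end

theorem F4_no_seven {K : Type*} [Field K] [Fintype K] {m : ℕ}
    (hK : Fintype.card K = 2 ^ (2 * m + 1)) (P : Subgroup (twistedF4 K (2 ^ m)))
    (hP : IsPGroup 7 P) {y : twistedF4 K (2 ^ m)}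
    (hy : y ∈ Subgroup.normalizer (P : Set (twistedF4 K (2 ^ m)))) {x} (hx : x ∈ P) :
    y ^ 8 * x * (y ^ 8)⁻¹ = x := by
  letI := good2F4
  obtain ⟨C⟩ := exists_CF4 hK
  haveI : Fact (Nat.Prime 7) := ⟨by norm_num⟩
  have hfin : Finite (twistedF4 K (2 ^ m)) := inferInstance
  set Hs := ((glSys chevF4 K).H ⊓ twistedF4 K (2 ^ m)).subgroupOf (twistedF4 K (2 ^ m)) with hHs
  have hc : Nat.card Hs = (Fintype.card K - 1) ^ 2 := by
    rw [← C.card_H]
    exact Nat.card_congr (Subgroup.subgroupOfEquivOfLe inf_le_right).toEquiv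
  have hi : ¬ 7 ∣ Hs.index := by
    have h1 := Hs.card_mul_index
    rw [hc, C.card_eq.2] at h1
    obtain ⟨t, ht⟩ : ∃ t, Fintype.card K = t + 1 := ⟨Fintype.card K - 1, by
      have := Fintype.card_pos (α := K); omega⟩
    have ht1 : 0 < t := by
      have := Fintype.one_lt_card (α := K); omega
    have h4 : (t + 1) ^ 4 - 1 = t * ((t + 2) * ((t + 1) ^ 2 + 1)) := by
      rw [Nat.sub_eq_iff_eq_add (Nat.one_le_pow _ _ (by omega))]; ring
    rw [ht, h4, Nat.add_sub_cancel] at h1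
    have h2 : Hs.index = (t + 1) ^ 12 * ((t + 1) ^ 3 + 1) * ((t + 2) * ((t + 1) ^ 2 + 1)) *
        ((t + 1) ^ 6 + 1) := Nat.eq_of_mul_eq_mul_left (pow_pos ht1 2) (by rw [h1]; ring)
    have h3 : (t + 1) % 7 = 1 ∨ (t + 1) % 7 = 2 ∨ (t + 1) % 7 = 4 := by
      rw [← ht, hK]
      generalize 2 * m + 1 = k
      induction k with
      | zero => simp
      | succ k ih => rw [pow_succ]; omega
    rw [h2, show t + 2 = t + 1 + 1 from rfl]
    generalize t + 1 = s at h3
    rw [Nat.dvd_iff_mod_eq_zero]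
    rcases h3 with h | h | h <;> simp [Nat.mul_mod, Nat.add_mod, Nat.pow_mod, h]
  obtain ⟨R, hR⟩ := FGS.exists_sylow_le_of_not_dvd_index hi
  obtain ⟨R', hR'⟩ := hP.exists_le_sylow
  obtain ⟨c, hc⟩ := MulAction.exists_smul_eq (twistedF4 K (2 ^ m)) R' R
  have hPH : ∀ s ∈ P, ((c * s * c⁻¹ : twistedF4 K (2 ^ m)) : GL _ K) ∈ (glSys chevF4 K).H := by
    intro s hs
    have : c * s * c⁻¹ ∈ (R : Subgroup _) := by
      rw [← hc, Sylow.coe_subgroup_smul]
      exact Subgroup.smul_mem_pointwise_smul _ _ _ (hR' hs)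
    exact (hR this).1
  obtain ⟨n, hn, hn'⟩ := exists_N_act (T := C.T) (y := ((c * y * c⁻¹ : twistedF4 K (2 ^ m)) : GL _ K))
    (C.eq_Fx ▸ (c * y * c⁻¹).2)
  rw [← C.eq_Fx] at hn
  have hyP : ∀ k : ℕ, y ^ k * x * (y ^ k)⁻¹ ∈ P := fun k =>
    (Subgroup.mem_normalizer_iff.mp (pow_mem hy k) x).1 hx
  have key : ∀ k : ℕ, ((c * (y ^ k * x * (y ^ k)⁻¹) * c⁻¹ : twistedF4 K (2 ^ m)) : GL _ K) =
      n ^ k * ((c * x * c⁻¹ : twistedF4 K (2 ^ m)) : GL _ K) * (n ^ k)⁻¹ := fun k => by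
    induction k with
    | zero => simp
    | succ k ih =>
      have e : (c * (y ^ (k + 1) * x * (y ^ (k + 1))⁻¹) * c⁻¹ : twistedF4 K (2 ^ m)) =
          (c * y * c⁻¹) * (c * (y ^ k * x * (y ^ k)⁻¹) * c⁻¹) * (c * y * c⁻¹)⁻¹ := by
        rw [pow_succ']; group
      have h1 := hPH _ (hyP (k + 1))
      rw [e] at h1 ⊢
      have := hn' _ (hPH _ (hyP k)) (by simpa only [Subgroup.coe_mul, Subgroup.coe_inv] using h1)
      simp only [Subgroup.coe_mul, Subgroup.coe_inv] at this ih ⊢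
      rw [this, ih, pow_succ']; group
  obtain ⟨φ, -, hφ⟩ := C.exists_dihedral
  have h8 : n ^ 8 ∈ (glSys chevF4 K).H := by
    have : (⟨n, hn⟩ : ↥((glSys chevF4 K).N ⊓ twistedF4 K (2 ^ m))) ^ 8 ∈ φ.ker := by
      rw [MonoidHom.mem_ker, map_pow]
      generalize φ _ = d
      revert d; decide
    rw [hφ] at this
    exact this.1
  have := key 8
  rw [gl_H_comm _ h8 _ (hPH x hx), mul_inv_cancel_right] at this
  have := Subtype.ext this
  simpa using this

def cyc7 : Equiv.Perm (Fin 7) := finRotate 7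
def dbl7 : Equiv.Perm (Fin 7) := ⟨fun i => 2 * i, fun i => 4 * i, by decide, by decide⟩

theorem exists_seven_three {r : ℕ} (hr : 7 ≤ r) : ∃ a b : alternatingGroup (Fin r),
    orderOf a = 7 ∧ b * a * b⁻¹ = a ^ 2 := by
  let ι := Equiv.Perm.viaEmbeddingHom (Fin.castLEEmb hr)
  have hι : Function.Injective ι := Equiv.Perm.viaEmbeddingHom_injective _
  have h1 : cyc7 = (cyc7 ^ 4) ^ 2 := by decide
  have h2 : dbl7 = (dbl7 ^ 2) ^ 2 := by decide
  have hs : ∀ c : Equiv.Perm (Fin 7), ι (c ^ 2) ∈ alternatingGroup (Fin r) := fun c => by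
    rw [Equiv.Perm.mem_alternatingGroup, map_pow, map_pow, Int.units_sq]
  refine ⟨⟨ι cyc7, h1 ▸ hs _⟩, ⟨ι dbl7, h2 ▸ hs _⟩, ?_, Subtype.ext ?_⟩
  · rw [← Subgroup.orderOf_coe, orderOf_injective ι hι]
    exact orderOf_eq_prime (hp := ⟨by norm_num⟩) (by decide) (by decide)
  · simp only [Subgroup.coe_mul, Subgroup.coe_inv, Subgroup.coe_pow]
    rw [← map_inv, ← map_mul, ← map_mul, ← map_pow]
    congr 1
    decide

theorem F4_alt_section {K : Type*} [Field K] [Fintype K] {m : ℕ}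
    (hK : Fintype.card K = 2 ^ (2 * m + 1)) (r : ℕ) (H : Subgroup ↥(twistedF4 K (2 ^ m)))
    (N : Subgroup ↥H) [N.Normal] (h : Nonempty (↥H ⧸ N ≃* ↥(alternatingGroup (Fin r)))) :
    r ≤ 6 := by
  by_contra hr
  obtain ⟨e⟩ := h
  obtain ⟨a, b, ha, hb⟩ := exists_seven_three (r := r) (by omega)
  haveI : Fact (Nat.Prime 7) := ⟨by norm_num⟩
  have h7 : a ^ 7 = 1 := ha ▸ pow_orderOf_eq_one a
  have hbn : b ∈ Subgroup.normalizer (Subgroup.zpowers a : Set _) := by
    refine Subgroup.mem_normalizer_fintype fun n hn => ?_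
    obtain ⟨k, rfl⟩ := hn
    simp only
    rw [← conj_zpow, hb]
    exact zpow_mem (pow_mem (Subgroup.mem_zpowers a) 2) k
  obtain ⟨P, hP, y, hy, x, hx, hxa, hya⟩ := exists_lift_fusion
    (e.toMonoidHom.comp (QuotientGroup.mk' N)) (e.surjective.comp (QuotientGroup.mk'_surjective N))
    ha hbn
  set π := e.toMonoidHom.comp (QuotientGroup.mk' N)
  have h1 := F4_no_seven hK (P.map H.subtype) (hP.map _) (y := y) (x := x)
    (Subgroup.le_normalizer_map _ ⟨y, hy, rfl⟩) ⟨x, hx, rfl⟩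
  have h2 : y ^ 8 * x * (y ^ 8)⁻¹ = x := Subtype.ext (by simpa using h1)
  have h3 := congrArg π h2
  rw [map_mul, map_mul, map_inv, map_pow, hxa] at h3
  rw [hb] at hya
  have h4 : ∀ k : ℕ, π y ^ k * a * (π y ^ k)⁻¹ = a ^ 2 ^ k := fun k => by
    induction k with
    | zero => simp
    | succ k ih =>
      calc π y ^ (k + 1) * a * (π y ^ (k + 1))⁻¹ = π y * (π y ^ k * a * (π y ^ k)⁻¹) * (π y)⁻¹ := by
            rw [pow_succ']; group
        _ = _ := by rw [ih, ← conj_pow, hya, ← pow_mul, pow_succ']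
  rw [h4] at h3
  have h5 : a ^ 255 = 1 := by
    have : a ^ 255 * a = 1 * a := by rw [← pow_succ, one_mul]; exact h3
    exact mul_right_cancel this
  have := orderOf_dvd_of_pow_eq_one h5
  rw [ha] at this
  norm_num at this

end Cfsg.Agent.Chev
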