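import Mathlib
import Cfsg.Agent.Chev.E6t

/-! Commutator relations in the 27-dimensional module. -/

set_option autoImplicit false
set_option linter.unusedSectionVars false
set_option maxHeartbeats 400000
set_option maxRecDepth 100000

namespace Cfsg.Agent.Chev.E6
open Cfsg.Lie Matrix

theorem chk_comm0 : allN 8 (fun r => chkCommR chevE6 27 col (8 * 0 + r)) = true := by
  decide +kernel
theorem chk_comm1 : allN 8 (fun r => chkCommR chevE6 27 col (8 * 1 + r)) = true := by
  decide +kernel
theorem chk_comm2 : allN 8 (fun r => chkCommR chevE6 27 col (8 * 2 + r)) = true := by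
  decide +kernel
theorem chk_comm3 : allN 8 (fun r => chkCommR chevE6 27 col (8 * 3 + r)) = true := by
  decide +kernel
theorem chk_comm4 : allN 8 (fun r => chkCommR chevE6 27 col (8 * 4 + r)) = true := by
  decide +kernel
theorem chk_comm5 : allN 8 (fun r => chkCommR chevE6 27 col (8 * 5 + r)) = true := by
  decide +kernel
theorem chk_comm6 : allN 8 (fun r => chkCommR chevE6 27 col (8 * 6 + r)) = true := by
  decide +kernel
theorem chk_comm7 : allN 8 (fun r => chkCommR chevE6 27 col (8 * 7 + r)) = true := by
  decide +kernel
theorem chk_comm8 : allN 8 (fun r => chkCommR chevE6 27 col (8 * 8 + r)) = true := by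
  decide +kernel

theorem chk_comm (r : ℕ) (hr : r < 72) : chkCommR chevE6 27 col r = true := by
  have h : ∀ k < 9, allN 8 (fun r => chkCommR chevE6 27 col (8 * k + r)) = true := fun k hk => by
    interval_cases k
    exacts [chk_comm0, chk_comm1, chk_comm2, chk_comm3, chk_comm4, chk_comm5, chk_comm6, chk_comm7,
      chk_comm8]
  have := (allN_iff _ _).mp (h (r / 8) (by omega)) (r % 8) (by omega)
  rwa [Nat.div_add_mod] at this

end Cfsg.Agent.Chev.E6
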