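import Mathlib
import Cfsg.Agent.Chev.E6t

/-! Finite checks on the tables of the cubic form. -/

set_option autoImplicit false
set_option linter.unusedSectionVars false
set_option maxHeartbeats 400000
set_option maxRecDepth 100000

namespace Cfsg.Agent.Chev.E6
open Cfsg.Lie Matrix

theorem linT_mon : ∀ i k : I27, linT mon i k = if crs i k = 0 then [] else [(crj i k, crs i k)] := by
  decide +kernel

theorem deg_cr : ∀ i k : I27, crs i k ≠ 0 → deg i + deg k + deg (crj i k) = 2 := by decide +kernel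

theorem sg_src : ∀ r < 72, ∀ i, sg r i = 0 ∨ sg r (src r i) = 0 := by decide +kernel

theorem col_spec : ∀ r < 72, ∀ j i : I27, (if src r i = j then sg r i else 0) =
    if nm i = byte tDST (27 * r + nm j) then Int.subNatNat (byte tSD (27 * r + nm j)) 1 else 0 := by
  decide +kernel

noncomputable section
def cd0 (a b c : ℕ) : ℕ := 729 * a + 27 * b + c
def srt (a b c : ℕ) : ℕ :=
  if a ≤ b then (if b ≤ c then cd0 a b c else if a ≤ c then cd0 a c b else cd0 c a b)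
  else (if a ≤ c then cd0 b a c else if b ≤ c then cd0 b c a else cd0 c b a)
def sr (a b c : I27) : ℕ := srt (nm a) (nm b) (nm c)
def expn (r : ℕ) (m : I27 × I27 × I27 × ℤ) : List Term :=
  [(sr (src r m.1) m.2.1 m.2.2.1, 1, 0, m.2.2.2 * sg r m.1),
   (sr m.1 (src r m.2.1) m.2.2.1, 1, 0, m.2.2.2 * sg r m.2.1),
   (sr m.1 m.2.1 (src r m.2.2.1), 1, 0, m.2.2.2 * sg r m.2.2.1),
   (sr (src r m.1) (src r m.2.1) m.2.2.1, 2, 0, m.2.2.2 * sg r m.1 * sg r m.2.1),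
   (sr (src r m.1) m.2.1 (src r m.2.2.1), 2, 0, m.2.2.2 * sg r m.1 * sg r m.2.2.1),
   (sr m.1 (src r m.2.1) (src r m.2.2.1), 2, 0, m.2.2.2 * sg r m.2.1 * sg r m.2.2.1),
   (sr (src r m.1) (src r m.2.1) (src r m.2.2.1), 3, 0,
    m.2.2.2 * sg r m.1 * sg r m.2.1 * sg r m.2.2.1)]
end

theorem chk_T : ∀ r < 72, isZero (subL [] (mon.flatMap (expn r))) = true := by decide +kernel

theorem mon_ne : ∀ m ∈ mon, m.1 ≠ m.2.1 ∧ m.1 ≠ m.2.2.1 ∧ m.2.1 ≠ m.2.2.1 := by decide +kernel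

theorem deg_top : deg top = 2 := by decide +kernel

theorem deg_cases : ∀ i, deg i = 0 ∨ deg i = 1 ∨ i = top := by decide +kernel

theorem c1 : ∀ i, i ≠ top → ∃ r < 72, ∃ j, src r j = i ∧ sg r j * sg r j = 1 ∧ deg i < deg j := by
  decide +kernel

theorem c2 : ∀ μ, deg μ = 1 → ∃ r < 72, src r μ = top ∧ sg r μ * sg r μ = 1 ∧
    ∀ ν, ν ≠ μ → deg ν ≠ 0 → sg r ν = 0 := by decide +kernel

theorem c4 : ∀ j, deg j = 0 → ∃ k, deg k = 0 ∧ crj top k = j ∧ crs top k * crs top k = 1 := by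
  decide +kernel

/-- the coordinates of degree zero -/
def pA : Fin 5 ⊕ Fin 5 → I27 :=
  Sum.elim ![(0, 0, 0), (0, 0, 2), (1, 1, 0), (1, 1, 1), (1, 1, 2)]
    ![(0, 1, 2), (0, 1, 0), (2, 0, 2), (2, 1, 2), (2, 2, 2)]

def pS : Fin 5 ⊕ Fin 5 → ℤ := Sum.elim (fun _ => 1) ![-1, 1, -1, -1, -1]

theorem pA_inj : Function.Injective pA := by decide +kernel
theorem pS_sq : ∀ j, pS j * pS j = 1 := by decide +kernel
theorem deg_pA : ∀ j, deg (pA j) = 0 := by decide +kernel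
theorem exists_pA : ∀ k, deg k = 0 → ∃ j, pA j = k := by decide +kernel

theorem c3 : ∀ a ∈ [Sum.inl 0, Sum.inr 0], ∀ i, i ≠ a → i ≠ a.swap →
    ∃ r < 72, ∃ ε ∈ [(1 : ℤ), -1], (∀ j, sg r j = 0 ∨ src r j ≠ top) ∧
      (src r (pA a) = pA i.swap ∧ pS a * ε * sg r (pA a) = pS i.swap) ∧
      (src r (pA i) = pA a.swap ∧ pS i * ε * sg r (pA i) = - pS a.swap) ∧
      ∀ j, j ≠ a → j ≠ i → sg r (pA j) = 0 := by decide +kernel

theorem c5 : ∀ μ ν, deg μ = 1 → deg ν = 1 → ν ≠ μ → ∃ j : Fin 5 ⊕ Fin 5, j ≠ .inl 4 ∧ j ≠ .inr 4 ∧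
    crs (pA j) μ = 0 ∧ deg (crj (pA j) ν) = 1 ∧ crj (pA j) (crj (pA j) ν) = ν ∧
      crs (pA j) (crj (pA j) ν) * crs (pA j) (crj (pA j) ν) = 1 := by decide +kernel

theorem c6 : ∀ k, deg k = 0 → ∃ μ κ, deg μ = 1 ∧ deg κ = 1 ∧ crj μ κ = k ∧
    crs μ κ * crs μ κ = 1 := by decide +kernel

theorem crs_top : ∀ i, deg i ≠ 0 → crs i top = 0 ∧ crs top i = 0 := by decide +kernel

theorem crs_sq : ∀ i k, crs i k ≠ 0 → crs i k * crs i k = 1 := by decide +kernel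

theorem exists_crs : ∀ i, ∃ k, crs i k ≠ 0 := by decide +kernel

theorem c7 : ∀ i k, crs i k ≠ 0 → ∀ j < 6, wt i j + wt (crj i k) j + wt k j = 0 := by
  decide +kernel

theorem c8 : ∀ μ, deg μ = 1 → ∃ r < 72, src r top = μ ∧ sg r top * sg r top = 1 ∧
    ∀ j, sg r j ≠ 0 → deg (src r j) < deg j := by decide +kernel

theorem c9 : ∀ b ν, deg b = 0 → deg ν = 1 → ∃ b', deg b' = 0 ∧ deg (crj b' ν) = 1 ∧
    crj b' (crj b' ν) = ν ∧ crs b' (crj b' ν) ≠ 0 ∧ crs b (crj b' ν) = 0 := by decide +kernel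

theorem c10 : ∀ b, deg b = 0 → ∃ i k, deg i = 0 ∧ deg k = 0 ∧ crj i k = top ∧ crs i k ≠ 0 ∧
    crj top k ≠ b ∧ deg (crj top k) = 0 ∧ crj i top ≠ b ∧ deg (crj i top) = 0 := by
  decide +kernel

noncomputable section
/-- cancel `t u = 1` -/
def red (L : List Term) : List Term :=
  L.map fun e => (e.1, e.2.1 - e.2.2.1, e.2.2.1 - e.2.1, e.2.2.2)

/-- the word of a fundamental diagonal element -/
def hW (i : ℕ) : List (ℕ × ℤ × ℕ × ℕ) :=
  [(chevE6.simple i, 1, 1, 0), (71 - chevE6.simple i, -1, 0, 1), (chevE6.simple i, 1, 1, 0),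
   (chevE6.simple i, -1, 0, 0), (71 - chevE6.simple i, 1, 0, 0), (chevE6.simple i, -1, 0, 0)]

def prop (K : List I27) : List (I27 × I27) → Bool
  | [] => decide (∀ i, i ∈ K)
  | p :: l => decide (p.1 ∈ K ∧ p.2 ∈ K ∧ crs p.1 p.2 ≠ 0) && prop (crj p.1 p.2 :: K) l
end

theorem hW_lt : ∀ i < 6, ∀ y ∈ hW i, y.1 < 72 := by decide +kernel

theorem chk_h : ∀ i < 6, ∀ b : I27, isZero (subL [(nm b, (wt b i).toNat, (-wt b i).toNat, 1)]
    (red (wordAppR col (hW i) [(nm b, 0, 0, 1)]))) = true := by decide +kernel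

theorem chk_prop : prop ([7, 22, 17, 25, 13, 10].map dec) ([(7, 13), (10, 17), (10, 22), (10, 23),
    (13, 17), (13, 22), (17, 25), (22, 5), (25, 3), (25, 4), (25, 23), (3, 7), (3, 9), (5, 6),
    (5, 7), (5, 19), (6, 9), (6, 11), (10, 0), (11, 0), (16, 23)].map
      fun p => (dec p.1, dec p.2)) = true := by decide +kernel

end Cfsg.Agent.Chev.E6
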