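import Mathlib
import Cfsg.Agent.Chev.E6c
import Cfsg.Agent.Chev.E6d

/-! The cubic form in 27 variables and its root elements. -/

set_option autoImplicit false
set_option linter.unusedSectionVars false
set_option maxHeartbeats 400000
set_option maxRecDepth 100000

namespace Cfsg.Agent.Chev.E6
open Cfsg.Lie Matrix

variable {F : Type*} [Field F]

theorem cubicT_eq (x : I27 → F) : cubicT x = TL mon x := by
  simp only [cubicT, mat3, det_fin_three, trace, diag, mul_apply, Fin.sum_univ_three, of_apply, TL,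
    mon, List.map_cons, List.map_nil, List.sum_cons, List.sum_nil]
  push_cast
  ring

theorem tri_ss (i k : I27) (y : I27 → F) :
    tri mon (Pi.single i 1) y (Pi.single k 1) = crs i k * y (crj i k) := by
  rw [tri_single, linT_mon]
  split_ifs with h <;> simp [h]

theorem BL_s (i : I27) (y : I27 → F) : BL mon (Pi.single i 1) y = 0 :=
  BL_single mon mon_ne i y

theorem tri_eq (x y z : I27 → F) :
    tri mon x y z = ∑ i, ∑ k, x i * (z k * (crs i k * y (crj i k))) := by
  conv_lhs => rw [pi_eq_sum_univ' x, tri_sum]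
  refine Finset.sum_congr rfl fun i _ => ?_
  conv_lhs => rw [tri_smul, pi_eq_sum_univ' z, tri_swap', tri_swap, tri_sum, Finset.mul_sum]
  refine Finset.sum_congr rfl fun k _ => ?_
  rw [tri_smul, tri_swap, tri_swap', tri_ss]

/-- supported in degrees at least `p` -/
def Ge (p : ℕ) (x : I27 → F) : Prop := ∀ i, deg i < p → x i = 0

theorem tri_of_ge {p q r : ℕ} {x y z : I27 → F} (hx : Ge p x) (hy : Ge q y) (hz : Ge r z)
    (h : 2 < p + q + r) : tri mon x y z = 0 := by
  rw [tri_eq]
  refine Finset.sum_eq_zero fun i _ => Finset.sum_eq_zero fun k _ => ?_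
  by_cases h0 : crs i k = 0
  · simp [h0]
  have := deg_cr i k h0
  by_cases h1 : deg i < p
  · simp [hx i h1]
  by_cases h2 : deg k < r
  · simp [hz k h2]
  simp [hy (crj i k) (by omega)]

theorem ge_single (i : I27) : Ge (deg i) (Pi.single i (1 : F)) := fun j h =>
  Pi.single_eq_of_ne (by rintro rfl; omega) _

theorem BL_deg0 {x : I27 → F} (hx : ∀ i, deg i ≠ 0 → x i = 0) {k : I27} (hk : deg k = 0) :
    BL mon x (Pi.single k 1) = 0 := by
  have : ∀ s : Finset I27, BL mon (∑ i ∈ s, x i • (Pi.single i 1 : I27 → F)) (Pi.single k 1) = 0 := fun s => by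
    induction s using Finset.induction_on with
    | empty => simp [BL]
    | insert i s hi ih =>
      rw [Finset.sum_insert hi, BL_add, ih, BL_smul, BL_s, tri_smul, tri_ss]
      by_cases h0 : crs i k = 0
      · simp [h0]
      have := deg_cr i k h0
      by_cases h1 : deg i = 0
      · simp [Finset.sum_apply, Pi.single_apply, hx (crj i k) (by omega)]
      · simp [hx i h1]
  rw [pi_eq_sum_univ' x]
  exact this _

/-- the action of a matrix -/
abbrev ac (g : GL I27 F) (v : I27 → F) : I27 → F := (g : Matrix I27 I27 F) *ᵥ v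

theorem ac_mul (g h : GL I27 F) (v : I27 → F) : ac (g * h) v = ac g (ac h v) := by
  simp [ac]

theorem ac_inv (g : GL I27 F) (v : I27 → F) : ac g (ac g⁻¹ v) = v := by
  rw [← ac_mul, mul_inv_cancel]; exact one_mulVec v

theorem inv_ac (g : GL I27 F) (v : I27 → F) : ac g⁻¹ (ac g v) = v := by
  rw [← ac_mul, inv_mul_cancel]; exact one_mulVec v

theorem mem_iff {g : GL I27 F} : g ∈ E6univ F ↔ ∀ v, TL mon (ac g v) = TL mon v := by
  simp only [← cubicT_eq]; rfl

theorem BL_ac (hF : ∃ c : F, c ≠ 0 ∧ c ≠ 1) {g : GL I27 F} (hg : g ∈ E6univ F) (x y : I27 → F) :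
    BL mon (ac g x) (ac g y) = BL mon x y := by
  obtain ⟨c, h0, h1⟩ := hF
  rw [mem_iff] at hg
  have h : ∀ c : F, c * BL mon (ac g x) (ac g y) + c ^ 2 * BL mon (ac g y) (ac g x) =
      c * BL mon x y + c ^ 2 * BL mon y x := fun c => by
    have := hg (x + c • y)
    rw [ac, mulVec_add, mulVec_smul, TL_add, TL_add, hg, hg] at this
    linear_combination this
  refine mul_left_cancel₀ (mul_ne_zero h0 (sub_ne_zero.mpr h1)) ?_
  linear_combination c ^ 2 * h 1 - h c

theorem tri_ac (hF : ∃ c : F, c ≠ 0 ∧ c ≠ 1) {g : GL I27 F} (hg : g ∈ E6univ F)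
    (x y z : I27 → F) : tri mon (ac g x) (ac g y) (ac g z) = tri mon x y z := by
  have := BL_ac hF hg (x + y) z
  rw [ac, mulVec_add, BL_add, BL_add, BL_ac hF hg, BL_ac hF hg] at this
  exact add_left_cancel this

/-- the nilpotent part of a root element -/
noncomputable def AM (F : Type*) [Field F] (r : ℕ) : Matrix I27 I27 F :=
  Matrix.of fun i j => if src r i = j then (sg r i : F) else 0

theorem AM_mulVec (r : ℕ) (v : I27 → F) (i : I27) : (AM F r *ᵥ v) i = sg r i * v (src r i) := by
  simp [AM, mulVec, dotProduct]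

theorem AM_sq (r : Rt chevE6) : AM F r * AM F r = 0 := by
  ext i j
  have := AM_mulVec (F := F) r (AM F r *ᵥ Pi.single j 1) i
  rw [mulVec_mulVec, AM_mulVec, mulVec_single_one] at this
  rw [Matrix.zero_apply, ← col_apply (AM F r * AM F r), this]
  rcases sg_src r r.2 i with h | h <;> simp [h]

theorem XM_mul (r : Rt chevE6) (t u : F) :
    (1 + t • AM F r) * (1 + u • AM F r) = 1 + (t + u) • AM F r := by
  simp [add_mul, mul_add, AM_sq, add_smul, add_assoc, add_comm]

/-- root elements -/
noncomputable def X (r : Rt chevE6) (t : F) : GL I27 F :=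
  ⟨1 + t • AM F r, 1 + (-t) • AM F r, by rw [XM_mul]; simp, by rw [XM_mul]; simp⟩

theorem ac_X (r : Rt chevE6) (t : F) (v : I27 → F) (i : I27) :
    ac (X r t) v i = v i + t * (sg r i * v (src r i)) := by
  simp [ac, X, add_mulVec, smul_mulVec, AM_mulVec]

/-- basis vectors -/
def bv (F : Type*) [Field F] (k : ℕ) : I27 → F := fun i => if nm i = k then 1 else 0

theorem bv_nm (i : I27) : bv F (nm i) = Pi.single i 1 := by
  ext j; simp [bv, nm_inj.eq_iff, Pi.single_apply]

/-- the natural representation -/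
noncomputable def rho (F : Type*) [Field F] : GL I27 F →* Module.End F (I27 → F) :=
  (Matrix.toLinAlgEquiv' : Matrix I27 I27 F ≃ₐ[F] _).toMonoidHom.comp (Units.coeHom _)

theorem rho_apply (g : GL I27 F) (v : I27 → F) : rho F g v = ac g v := rfl

theorem rho_X (r : Rt chevE6) (τ : F) (b : ℕ) :
    rho F (X r τ) (bv F b) = bv F b + evCV (bv F) τ (col r b) := by
  rw [col, brec_ite]
  split_ifs with h
  · obtain ⟨j, rfl⟩ : ∃ j, nm j = b := ⟨_, nm_dec (Nat.blt_eq.mp h)⟩
    ext i
    have := congrArg (Int.cast : ℤ → F) (col_spec r r.2 j i)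
    generalize Int.subNatNat _ 1 = s at this ⊢
    rw [rho_apply, ac_X]
    simp only [evCV, List.map_cons, List.map_nil, List.sum_cons, List.sum_nil, add_zero,
      Pi.add_apply, Pi.smul_apply, bv, nm_inj.eq_iff, smul_eq_mul, pow_one]
    push_cast at this
    rw [mul_ite, mul_one, mul_zero, this]
    split_ifs <;> ring
  · have : bv F b = 0 := by
      ext i; have := nm_lt i; rw [Nat.blt_eq] at h; exact if_neg (by omega)
    simp [this, evCV]

theorem gl_ext {a b : GL I27 F} (h : ∀ i, ac a (Pi.single i 1) = ac b (Pi.single i 1)) : a = b := by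
  ext i j
  simpa [ac] using congrFun (h j) i

theorem relAB_X : letI := good2E6
    RelAB (X : Rt chevE6 → F → GL I27 F) := by
  letI := good2E6
  refine relAB_of_chk (n := 27) (rho F) (fun a b h => gl_ext fun i => ?_) rho_X
    (fun r t u => Units.ext (XM_mul r t u).symm) chk_comm
  rw [← bv_nm]; exact h _ (nm_lt i)

/-- the monomial with a given code -/
def mv (x : I27 → F) (c : ℕ) : F := x (dec (c / 729)) * x (dec (c / 27 % 27)) * x (dec (c % 27))

theorem mv_cd0 (x : I27 → F) (a b c : I27) : mv x (cd0 (nm a) (nm b) (nm c)) = x a * x b * x c := by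
  have h1 := nm_lt a
  have h2 := nm_lt b
  have h3 := nm_lt c
  rw [mv, cd0, show (729 * nm a + 27 * nm b + nm c) / 729 = nm a by omega,
    show (729 * nm a + 27 * nm b + nm c) / 27 % 27 = nm b by omega,
    show (729 * nm a + 27 * nm b + nm c) % 27 = nm c by omega, dec_nm, dec_nm, dec_nm]

theorem mv_sr (x : I27 → F) (a b c : I27) : mv x (sr a b c) = x a * x b * x c := by
  rw [sr, srt]
  split_ifs <;> rw [mv_cd0] <;> ring

theorem X_mem (r : Rt chevE6) (t : F) : X r t ∈ E6univ F := by
  rw [mem_iff]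
  intro v
  have h := evV_eq_of_isZero (mv v) t 0 (chk_T r r.2)
  rw [evV_nil] at h
  rw [← add_zero (TL mon v), h]
  generalize mon = L
  induction L with
  | nil => simp [TL, evV]
  | cons m L ih =>
    simp only [TL, evV, List.map_cons, List.sum_cons, List.flatMap_cons, List.map_append,
      List.sum_append] at ih ⊢
    rw [ih]
    simp only [expn, List.map_cons, List.sum_cons, List.map_nil, List.sum_nil, mv_sr, ac_X,
      smul_eq_mul]
    push_cast
    ring

end Cfsg.Agent.Chev.E6
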