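import Mathlib
import Cfsg.Agent.Chev.E6a
import Cfsg.Agent.Chev.OrthR
import Cfsg.Agent.Orth.Hyp

/-! The isometry group of the cubic form is generated by the root elements. -/

set_option autoImplicit false
set_option linter.unusedSectionVars false
set_option maxHeartbeats 400000
set_option maxRecDepth 100000

namespace Cfsg.Agent.Chev
open Cfsg.Lie Matrix Cfsg.Agent.Orth QuadraticMap

section orth
variable {F V : Type*} [Field F] [AddCommGroup V] [Module F V] {Q : QuadraticForm F V}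

theorem exists_diag_frame {ι : Type*} [DecidableEq ι] {e f : ι → V} (h : HypFrame Q e f) {z : V}
    (hz : Q z ≠ 0) (s : Finset ι) (hze : ∀ i ∈ s, polar Q (e i) z = 0 ∧ polar Q (f i) z = 0)
    (g : OG Q) : ∃ a ∈ eichGroup Q, ∀ i ∈ s,
      (∃ c : F, (a * g).1 (e i) = c • e i) ∧ ∃ c : F, (a * g).1 (f i) = c • f i := by
  induction s using Finset.induction_on with
  | empty => exact ⟨1, one_mem _, by simp⟩
  | insert j s hj ih =>
    obtain ⟨a, ha, h1⟩ := ih fun i hi => hze i (Finset.mem_insert_of_mem hi)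
    let U : Submodule F V := ⨅ i ∈ s, perp Q (Submodule.span F {e i, f i})
    have hU : ∀ {x}, x ∈ U ↔ ∀ i ∈ s, polar Q (e i) x = 0 ∧ polar Q (f i) x = 0 := by
      simp [U, mem_perp_pair]
    let G : Subgroup (OG Q) := eichGroup Q ⊓ ⨅ i ∈ s,
      MulAction.stabilizer (OG Q) (e i) ⊓ MulAction.stabilizer (OG Q) (f i)
    have hG : ∀ {b}, b ∈ G ↔ b ∈ eichGroup Q ∧ ∀ i ∈ s, b.1 (e i) = e i ∧ b.1 (f i) = f i := by
      simp [G, OG.smul_def]
    have hne : ∀ i ∈ s, i ≠ j := fun i hi e => hj (e ▸ hi)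
    have heU : e j ∈ U := hU.mpr fun i hi => ⟨h.ee _ _, by rw [h.fe, if_neg (hne i hi)]⟩
    have hfU : f j ∈ U := hU.mpr fun i hi => ⟨by rw [h.ef, if_neg (hne i hi)], h.ff _ _⟩
    have hfix : ∀ {u w}, u ∈ U → w ∈ U → Q u = 0 → polar Q u w = 0 → eich Q u w ∈ G :=
      fun {u w} hu hw e1 e2 => hG.mpr ⟨eich_mem_eichGroup _ _, fun i hi =>
        ⟨eich_apply_of_orth e1 e2 (by rw [polar_comm]; exact (hU.mp hu i hi).1)
          (by rw [polar_comm]; exact (hU.mp hw i hi).1),
        eich_apply_of_orth e1 e2 (by rw [polar_comm]; exact (hU.mp hu i hi).2)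
          (by rw [polar_comm]; exact (hU.mp hw i hi).2)⟩⟩
    have haU : ∀ x ∈ U, (a * g).1 x ∈ U := fun x hx => hU.mpr fun i hi => by
      obtain ⟨⟨c, hc⟩, d, hd⟩ := h1 i hi
      obtain ⟨e1, e2⟩ := hU.mp hx i hi
      have h3 := OG.map_polar (a * g) (e i) (f i)
      rw [hc, hd, p_smul_left, p_smul_right, h.ef, if_pos rfl, mul_one] at h3
      rw [← OG.map_polar (a * g)] at e1 e2
      rw [hc, p_smul_left] at e1
      rw [hd, p_smul_left] at e2
      exact ⟨(mul_eq_zero.mp e1).resolve_left (left_ne_zero_of_mul_eq_one h3),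
        (mul_eq_zero.mp e2).resolve_left (right_ne_zero_of_mul_eq_one h3)⟩
    obtain ⟨b, hb, c, d, hc, hd⟩ := exists_to_pair (h.qe j) (h.qf j) (by rw [h.ef, if_pos rfl])
      heU hfU (fun w hw e => hfix heU hw (h.qe j) e) (fun w hw e => hfix hfU hw (h.qf j) e)
      (fun b hb x hx => hU.mpr fun i hi => by
        obtain ⟨e1, e2⟩ := hU.mp hx i hi
        rw [← OG.map_polar b] at e1 e2
        rw [((hG.mp hb).2 i hi).1] at e1
        rw [((hG.mp hb).2 i hi).2] at e2
        exact ⟨e1, e2⟩)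
      (hU.mpr fun i hi => hze i (Finset.mem_insert_of_mem hi)) (hze j (by simp)).1
      (hze j (by simp)).2 hz (haU _ heU) (by rw [OG.map_Q, h.qe]) (haU _ hfU)
      (by rw [OG.map_Q, h.qf]) (by rw [OG.map_polar, h.ef, if_pos rfl])
    refine ⟨b * a, mul_mem (hG.mp hb).1 ha, fun i hi => ?_⟩
    rw [mul_assoc]
    rcases Finset.mem_insert.mp hi with rfl | hi
    · exact ⟨⟨c, hc⟩, d, hd⟩
    · obtain ⟨⟨c, hc⟩, d, hd⟩ := h1 i hi
      exact ⟨⟨c, by rw [OG.mul_apply, hc, map_smul, ((hG.mp hb).2 i hi).1]⟩,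
        d, by rw [OG.mul_apply, hd, map_smul, ((hG.mp hb).2 i hi).2]⟩

theorem exists_induced [FiniteDimensional F V] (hQ : ND Q) {V' : Type*} [AddCommGroup V']
    [Module F V'] (p : V' →ₗ[F] V) (j : V →ₗ[F] V') (hp : ∀ w, p (j w) = w) (g : V' →ₗ[F] V')
    (hg : Function.Surjective g) (h : ∀ x, Q (p (g x)) = Q (p x)) :
    ∃ a : OG Q, ∀ x, p (g x) = a.1 (p x) := by
  have h1 : ∀ x y, polar Q (p (g x)) (p (g y)) = polar Q (p x) (p y) := fun x y => by
    simp only [polar, ← map_add, h]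
  have h2 : ∀ x, p x = 0 → p (g x) = 0 := fun x hx => hQ _ fun y => by
    obtain ⟨z, hy⟩ := hg (j y)
    rw [← hp y, ← hy, h1, hx, polar_zero_left]
  have h3 : Function.Injective (p ∘ₗ g ∘ₗ j) := (injective_iff_map_eq_zero _).mpr fun w hw =>
    hQ _ fun y => by
      have := h1 (j w) (j y)
      rwa [hp, hp, show p (g (j w)) = 0 from hw, polar_zero_left, eq_comm] at this
  refine ⟨⟨LinearEquiv.ofInjectiveEndo _ h3, fun w => (h (j w)).trans (by rw [hp])⟩, fun x => ?_⟩
  have := h2 (x - j (p x)) (by rw [map_sub, hp, sub_self])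
  rwa [map_sub, map_sub, sub_eq_zero] at this

end orth

namespace E6
variable {F : Type*} [Field F]

/-- basis vectors -/
abbrev es (i : I27) : I27 → F := Pi.single i 1

variable (F) in
/-- the group generated by the root elements -/
def G0 : Subgroup (GL I27 F) := Subgroup.closure {a | ∃ r t, a = X r t}

theorem ac_one (v : I27 → F) : ac 1 v = v := one_mulVec v

theorem X_mem_G0 {r : ℕ} (hr : r < 72) (t : F) : X ⟨r, hr⟩ t ∈ G0 F :=
  Subgroup.subset_closure ⟨_, _, rfl⟩

theorem G0_le : G0 F ≤ E6univ F := by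
  rw [G0, Subgroup.closure_le]
  rintro _ ⟨r, t, rfl⟩
  exact X_mem r t

theorem cast_ne {a : ℤ} (h : a * a = 1) : (a : F) ≠ 0 :=
  left_ne_zero_of_mul_eq_one (b := (a : F)) (by exact_mod_cast congrArg (Int.cast : ℤ → F) h)

theorem cast_sq {a : ℤ} (h : a * a = 1) : (a : F) * a = 1 := by
  exact_mod_cast congrArg (Int.cast : ℤ → F) h

theorem exists_top (n : ℕ) : ∀ (i : I27) (v : I27 → F), 2 ≤ deg i + n → v i ≠ 0 →
    ∃ g ∈ G0 F, ac g v top ≠ 0 := by
  induction n with
  | zero =>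
    intro i v h hv
    rcases deg_cases i with h1 | h1 | rfl
    · omega
    · omega
    · exact ⟨1, one_mem _, by simpa [ac] using hv⟩
  | succ n ih =>
    intro i v h hv
    by_cases hi : i = top
    · exact ⟨1, one_mem _, by simpa [ac, hi] using hv⟩
    obtain ⟨r, hr, j, h1, h2, h3⟩ := c1 i hi
    by_cases hj : v j = 0
    · obtain ⟨g, hg, h4⟩ := ih j (ac (X ⟨r, hr⟩ 1) v) (by omega) (by
        rw [ac_X]; simp [hj, h1, hv, cast_ne h2])
      exact ⟨_, mul_mem hg (X_mem_G0 hr 1), by rwa [ac_mul]⟩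
    · exact ih j v (by omega) hj

theorem exists_kill {v : I27 → F} (hv : v top ≠ 0) (s : Finset I27) : ∃ g ∈ G0 F,
    ac g v top = v top ∧ ∀ i ∈ s, deg i = 1 → ac g v i = 0 := by
  induction s using Finset.induction_on with
  | empty => exact ⟨1, one_mem _, by simp [ac]⟩
  | insert μ s hμ ih =>
    obtain ⟨g, hg, h1, h2⟩ := ih
    by_cases h0 : deg μ = 1
    swap
    · exact ⟨g, hg, h1, by simpa [h0] using h2⟩
    obtain ⟨r, hr, h3, h4, h5⟩ := c2 μ h0
    refine ⟨_, mul_mem (X_mem_G0 hr (-(sg r μ * ac g v μ / v top))) hg, ?_, fun i hi h6 => ?_⟩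
    · rw [ac_mul, ac_X, h5 top (by rintro rfl; simp [deg_top] at h0) (by simp [deg_top]), h1]; simp
    rw [ac_mul, ac_X]
    rcases Finset.mem_insert.mp hi with rfl | hi
    · rw [h3, h1]
      field_simp
      linear_combination (-ac g v i) * cast_sq (F := F) h4
    · rw [h5 i (fun e => hμ (e ▸ hi)) (by omega), h2 i hi h6]; simp

theorem exists_line {v : I27 → F} (hv : v ≠ 0) (hw : ∀ g ∈ G0 F, ∀ y, BL mon (ac g v) y = 0) :
    ∃ g ∈ G0 F, ∃ c : F, c ≠ 0 ∧ ac g v = c • es top := by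
  obtain ⟨i, hi⟩ := Function.ne_iff.mp hv
  obtain ⟨g, hg, h1⟩ := exists_top 2 i v (by omega) hi
  obtain ⟨g', hg', h2, h3⟩ := exists_kill h1 Finset.univ
  rw [← ac_mul] at h2 h3
  replace hw := hw _ (mul_mem hg' hg)
  refine ⟨_, mul_mem hg' hg, _, h1, ?_⟩
  rw [← h2] at h1 ⊢
  generalize ac (g' * g) v = w at *
  have h4 : ∀ i, deg i ≠ 0 → (w - w top • es top : I27 → F) i = 0 := fun i hi => by
    rcases deg_cases i with h | h | rfl
    · exact absurd h hi
    · simp [h3 i (by simp) h, show i ≠ top by rintro rfl; simp [deg_top] at h]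
    · simp
  rw [← sub_eq_zero]
  ext j
  by_cases hj : deg j = 0
  swap
  · exact h4 j hj
  obtain ⟨k, h5, h6, h7⟩ := c4 j hj
  have h8 := hw (es k)
  rw [← add_sub_cancel (w top • es top) w, BL_add, BL_smul, BL_s, BL_deg0 h4 h5, tri_smul, tri_ss,
    h6] at h8
  simpa [h1, cast_ne h7] using h8

theorem evV_red (bv : ℕ → I27 → F) {t u : F} (h : t * u = 1) (L : List Term) :
    evV bv t u (red L) = evV bv t u L := by
  simp only [evV, red, List.map_map]
  congr 2
  ext1 e
  simp only [Function.comp]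
  congr 1
  rcases le_total e.2.1 e.2.2.1 with h1 | h1
  · obtain ⟨k, hk⟩ := Nat.exists_eq_add_of_le h1
    rw [hk, Nat.sub_eq_zero_of_le (by omega), Nat.add_sub_cancel_left, pow_add, mul_assoc, mul_assoc,
      ← mul_assoc (t ^ e.2.1), ← mul_pow, h]; simp
  · obtain ⟨k, hk⟩ := Nat.exists_eq_add_of_le h1
    rw [hk, Nat.sub_eq_zero_of_le (n := e.2.2.1) (by omega), Nat.add_sub_cancel_left, pow_add,
      mul_assoc, mul_assoc, mul_right_comm (t ^ _), ← mul_pow, h]; simp

variable (F) in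
/-- the diagonal matrices in the group generated by the root elements -/
def SD : Subgroup (I27 → Fˣ) where
  carrier := {d | ∃ g ∈ G0 F, ∀ i, ac g (es i) = (d i : F) • es i}
  one_mem' := ⟨1, one_mem _, fun i => by rw [ac_one]; simp⟩
  mul_mem' := fun ⟨g, hg, h⟩ ⟨g', hg', h'⟩ => ⟨_, mul_mem hg hg', fun i => by
    rw [ac_mul, h', ac, mulVec_smul, ← ac, h, smul_smul, mul_comm]; rfl⟩
  inv_mem' := fun {d} ⟨g, hg, h⟩ => ⟨_, inv_mem hg, fun i => by
    have := inv_ac g ((d i)⁻¹ • es i)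
    rw [ac, ac, Units.smul_def, mulVec_smul, ← ac, ← ac, h, smul_smul, Units.inv_mul, one_smul] at this
    exact this⟩

theorem hw_mem {j : ℕ} (hj : j < 6) (s : Fˣ) : (fun i => s ^ wt i j) ∈ SD F := by
  letI := good2E6
  refine ⟨wd X (evW (s : F) (s⁻¹ : Fˣ) (hW j)), wd_mem fun r t _ => X_mem_G0 r.2 t, fun i => ?_⟩
  have := evV_eq_of_isZero (bv F) (s : F) (s⁻¹ : Fˣ) (chk_h j hj i)
  rw [evV_red _ s.mul_inv, wordAppR_spec (rho F) rho_X _ _ _ (hW_lt j hj), evV_single, rho_apply,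
    bv_nm, evV_cons, evV_nil, bv_nm] at this
  rw [← this, add_zero, Int.cast_one, one_mul]
  congr 1
  rw [← Units.val_pow_eq_pow_val, ← Units.val_pow_eq_pow_val, ← Units.val_mul, inv_pow,
    ← zpow_natCast, ← zpow_natCast, ← _root_.zpow_sub, Int.toNat_sub_toNat_neg]

variable (F) in
/-- the diagonal matrices preserving the form -/
def RD : Subgroup (I27 → Fˣ) where
  carrier := {d | ∀ i k, crs i k ≠ 0 → d i * d (crj i k) * d k = 1}
  one_mem' := by simp
  mul_mem' := fun {a b} h h' i k e => by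
    have := congrArg₂ (· * ·) (h i k e) (h' i k e)
    simp only [Pi.mul_apply]
    rw [← mul_one 1, ← this]
    simp only [mul_assoc, mul_comm, mul_left_comm]
  inv_mem' := fun {a} h i k e => by
    simp only [Pi.inv_apply]
    rw [← mul_inv, ← mul_inv, h i k e, inv_one]

theorem hw_mem' {j : ℕ} (hj : j < 6) (s : Fˣ) : (fun i => s ^ wt i j) ∈ RD F := fun i k e => by
  rw [← _root_.zpow_add, ← _root_.zpow_add, c7 i k e j hj, zpow_zero]

theorem eq_one_of_prop {d : I27 → Fˣ} (hd : d ∈ RD F) (l : List (I27 × I27)) (K : List I27)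
    (hK : ∀ i ∈ K, d i = 1) (h : prop K l = true) : d = 1 := by
  induction l generalizing K with
  | nil => exact funext fun i => hK i (of_decide_eq_true h i)
  | cons p l ih =>
    change (decide (p.1 ∈ K ∧ p.2 ∈ K ∧ crs p.1 p.2 ≠ 0) && prop (crj p.1 p.2 :: K) l) = true at h
    simp only [Bool.and_eq_true, decide_eq_true_eq] at h
    refine ih _ (fun i hi => ?_) h.2
    rcases List.mem_cons.mp hi with rfl | hi
    · simpa [hK _ h.1.1, hK _ h.1.2.1] using hd _ _ h.1.2.2
    · exact hK i hi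

theorem exists_norm (l : List (I27 × ℕ)) (h1 : ∀ p ∈ l, p.2 < 6 ∧ wt p.1 p.2 * wt p.1 p.2 = 1)
    (h2 : l.Pairwise fun p q => wt q.1 p.2 = 0) (d : I27 → Fˣ) :
    ∃ c ∈ SD F ⊓ RD F, ∀ p ∈ l, (d * c) p.1 = 1 := by
  induction l with
  | nil => exact ⟨1, one_mem _, by simp⟩
  | cons p l ih =>
    rw [List.pairwise_cons] at h2
    obtain ⟨c, hc, h3⟩ := ih (fun q hq => h1 q (by simp [hq])) h2.2
    obtain ⟨h4, h5⟩ := h1 p (by simp)
    refine ⟨_, mul_mem hc ⟨hw_mem h4 (((d * c) p.1)⁻¹ ^ wt p.1 p.2), hw_mem' h4 _⟩, fun q hq => ?_⟩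
    rw [← mul_assoc, Pi.mul_apply]
    rcases List.mem_cons.mp hq with rfl | hq
    · rw [← _root_.zpow_mul, h5, zpow_one, mul_inv_cancel]
    · rw [h3 q hq, h2.1 q hq, zpow_zero, mul_one]

theorem RD_le : RD F ≤ SD F := fun d hd => by
  obtain ⟨c, hc, h⟩ := exists_norm [(dec 10, 1), (dec 13, 5), (dec 25, 4), (dec 17, 3), (dec 22, 2),
    (dec 7, 0)] (by decide +kernel) (by decide +kernel) d
  have := eq_one_of_prop (mul_mem hd hc.2) _ _ (by
    simp only [List.forall_mem_cons, List.map_cons] at h ⊢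
    simp [h]) chk_prop
  rw [eq_inv_of_mul_eq_one_left this]
  exact inv_mem hc.1

/-- projection to the orthogonal quotient -/
noncomputable def pj : (I27 → F) →ₗ[F] (Fin 5 ⊕ Fin 5 → F) where
  toFun x j := pS j * x (pA j)
  map_add' x y := by ext; simp [mul_add]
  map_smul' c x := by ext; simp [mul_left_comm]

theorem pj_apply (x : I27 → F) (j : Fin 5 ⊕ Fin 5) : pj x j = pS j * x (pA j) := rfl

theorem Q_pj (x : I27 → F) : plusQ 5 F (pj x) = BL mon x (es top) := by
  simp [plusQ_apply, pj_apply, Fin.sum_univ_five, BL, mon, top, pS, pA, Pi.single_apply]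
  ring

theorem pj_es (j : Fin 5 ⊕ Fin 5) : pj (es (pA j) : I27 → F) = (pS j : F) • Pi.single j 1 := by
  ext k
  by_cases h : k = j <;> simp [pj_apply, Pi.single_apply, pA_inj.eq_iff, h]

theorem exists_og (hF : ∃ c : F, c ≠ 0 ∧ c ≠ 1) {g : GL I27 F} (hg : g ∈ E6univ F)
    (h : ac g (es top) = es top) : ∃ a : OG (plusQ 5 F), ∀ x, pj (ac g x) = a.1 (pj x) := by
  refine exists_induced (nd_plusQ 5) pj
    (Fintype.linearCombination F fun j => (pS j : F) • es (pA j)) (fun w => ?_) (rho F g)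
    (fun y => ⟨_, ac_inv g y⟩) fun x => ?_
  · rw [Fintype.linearCombination_apply, map_sum]
    simp only [map_smul, pj_es, smul_smul, mul_assoc, cast_sq (pS_sq _), mul_one]
    exact (pi_eq_sum_univ' w).symm
  · rw [Q_pj, Q_pj, rho_apply, ← h, BL_ac hF hg, h]

variable (F) in
/-- isometries of the quotient induced by the group generated by the root elements -/
def SO : Subgroup (OG (plusQ 5 F)) where
  carrier := {a | ∃ g ∈ G0 F, ac g (es top) = es top ∧ ∀ x, pj (ac g x) = a.1 (pj x)}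
  one_mem' := ⟨1, one_mem _, ac_one _, fun x => by rw [ac_one]; rfl⟩
  mul_mem' := fun ⟨g, hg, h1, h2⟩ ⟨g', hg', h1', h2'⟩ => ⟨_, mul_mem hg hg',
    by rw [ac_mul, h1', h1], fun x => by rw [ac_mul, h2, h2']; rfl⟩
  inv_mem' := fun {a} ⟨g, hg, h1, h2⟩ => ⟨_, inv_mem hg, by rw [← h1, inv_ac, h1], fun x => by
    conv_rhs => rw [← ac_inv g x, h2, OG.inv_apply_self]⟩

theorem polar_single (a : Fin 5 ⊕ Fin 5) (w : Fin 5 ⊕ Fin 5 → F) :
    polar (plusQ 5 F) (Pi.single a 1) w = w a.swap := by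
  rcases a with a | a <;> simp [polar_plusQ, Pi.single_apply]

theorem q_single (a : Fin 5 ⊕ Fin 5) : plusQ 5 F (Pi.single a 1) = 0 := by
  rcases a with a | a <;> simp [plusQ_apply]

theorem eich_mem_SO {a : Fin 5 ⊕ Fin 5} (ha : a ∈ [Sum.inl 0, Sum.inr 0]) :
    ∀ w, polar (plusQ 5 F) (Pi.single a 1) w = 0 → eich (plusQ 5 F) (Pi.single a 1) w ∈ SO F := by
  refine eich_mem_of_basis (q_single a) (polar_single a) fun i hi c => ?_
  by_cases h : i = a
  · rw [h, eich_smul_self (q_single a)]; exact one_mem _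
  obtain ⟨r, hr, ε, -, h1, ⟨h2, h3⟩, ⟨h4, h5⟩, h6⟩ := c3 a ha i h hi
  refine ⟨_, X_mem_G0 hr (ε * c), funext fun j => ?_, fun x => funext fun j => ?_⟩
  · rw [ac_X]; rcases h1 j with h | h <;> simp [h]
  rw [eich_apply (q_single a) (by simp [polar_single, Ne.symm hi]), q_smul, q_single, p_smul_left,
    polar_single, polar_single]
  simp only [pj_apply, ac_X, Pi.add_apply, Pi.sub_apply, Pi.smul_apply, smul_eq_mul]
  by_cases e1 : j = a
  · subst e1
    have := congrArg (Int.cast : ℤ → F) h3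
    push_cast at this
    simp only [h2, Pi.single_eq_same, Pi.single_eq_of_ne (Ne.symm h)]
    linear_combination c * x (pA i.swap) * this
  by_cases e2 : j = i
  · subst e2
    have := congrArg (Int.cast : ℤ → F) h5
    push_cast at this
    simp only [h4, Pi.single_eq_same, Pi.single_eq_of_ne h]
    linear_combination c * x (pA a.swap) * this
  · simp [h6 j e1 e2, e1, e2]

theorem eichGroup_le_SO : eichGroup (plusQ 5 F) ≤ SO F :=
  eichGroup_le_of (q_single (.inl 0)) (q_single (.inr 0)) (by simp [polar_single])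
    (fun u _ => nd_plusQ 5 u) (eich_mem_SO (by simp)) (eich_mem_SO (by simp))
    (z := Pi.single (.inl 1) 1 + Pi.single (.inr 1) 1) (by simp [polar_single])
    (by simp [polar_single]) (by simp [q_add, q_single, polar_single])

theorem coord_of_pj {x : I27 → F} {k : I27} (hk : deg k = 0) (h : ∀ j, pA j = k → pj x j = 0) :
    x k = 0 := by
  obtain ⟨j, rfl⟩ := exists_pA k hk
  exact (mul_eq_zero.mp (h j rfl)).resolve_left (cast_ne (pS_sq j))

/-- reduction to an element that is diagonal on eight coordinates of the quotient -/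
theorem exists_diag8 (hF : ∃ c : F, c ≠ 0 ∧ c ≠ 1) {g : GL I27 F} (hg : g ∈ E6univ F) :
    ∃ h ∈ G0 F, ac (h * g) (es top) = es top ∧ (∀ x, Ge 1 x → Ge 1 (ac (h * g) x)) ∧
      ∀ j, j ≠ .inl 4 → j ≠ .inr 4 → ∃ c : F, c ≠ 0 ∧ Ge 1 (ac (h * g) (es (pA j)) - c • es (pA j)) := by
  obtain ⟨g1, hg1, c, hc, h1⟩ := exists_line (v := ac g (es top))
    (fun h => by simpa [h, ac] using congrFun (inv_ac g (es top)) top) fun a ha y => by
      rw [← ac_mul, ← ac_inv (a * g) y, BL_ac hF (mul_mem (G0_le ha) hg), BL_s]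
  obtain ⟨g2, hg2, h2⟩ := hw_mem (j := 0) (by omega) (Units.mk0 c hc)⁻¹
  have h3 : ac (g2 * g1 * g) (es top) = es top := by
    rw [ac_mul, ac_mul, h1, ac, mulVec_smul, ← ac, h2]
    simp [smul_smul, hc, show wt top 0 = 1 by decide +kernel]
  obtain ⟨a, ha⟩ := exists_og hF (mul_mem (G0_le (mul_mem hg2 hg1)) hg) h3
  obtain ⟨b, hb, h4⟩ := exists_diag_frame (hypFrame_plusQ (F := F) 5)
    (z := Pi.single (.inl 4) 1 + Pi.single (.inr 4) 1) (by simp [q_add, q_single, polar_single])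
    (Finset.univ.erase 4) (fun i hi => by
      simp [polar_single, Pi.single_apply, (Finset.mem_erase.mp hi).1]) a
  obtain ⟨g3, hg3, h5, h6⟩ := eichGroup_le_SO hb
  have h7 : ∀ x, pj (ac (g3 * (g2 * g1) * g) x) = (b * a).1 (pj x) := fun x => by
    rw [mul_assoc, ac_mul, h6, ha]; rfl
  refine ⟨_, mul_mem hg3 (mul_mem hg2 hg1), by rw [mul_assoc, ac_mul, h3, h5],
    fun x hx k hk => coord_of_pj (by omega) fun j _ => ?_, fun j e1 e2 => ?_⟩
  · rw [h7, show pj x = 0 from funext fun j => by simp [pj_apply, hx (pA j) (by simp [deg_pA])]]; simp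
  obtain ⟨d, hd⟩ : ∃ d : F, (b * a).1 (Pi.single j 1) = d • Pi.single j 1 := by
    rcases j with j | j
    · exact (h4 j (by simpa using e1)).1
    · exact (h4 j (by simpa using e2)).2
  refine ⟨d, fun h => ?_, fun k hk => coord_of_pj (by omega) fun i _ => ?_⟩
  · rw [h, zero_smul, OG.apply_eq_zero] at hd
    simpa using congrFun hd j
  · rw [map_sub, h7, map_smul, pj_es, map_smul, hd, smul_comm, sub_self]; rfl

end E6
end Cfsg.Agent.Chev
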