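import Mathlib
import Cfsg.Agent.Chev.E6b

/-! The isometry group of the cubic form, concluded. -/

set_option autoImplicit false
set_option linter.unusedSectionVars false
set_option maxHeartbeats 400000
set_option maxRecDepth 100000

namespace Cfsg.Agent.Chev.E6
open Cfsg.Lie Matrix

variable {F : Type*} [Field F] (hF : ∃ c : F, c ≠ 0 ∧ c ≠ 1) {g : GL I27 F} (hg : g ∈ E6univ F)

theorem ne_top {i : I27} (h : deg i ≠ 2) : i ≠ top := by rintro rfl; exact h deg_top

theorem es_same (i : I27) : (es i : I27 → F) i = 1 := Pi.single_eq_same _ _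

theorem es_ne {i j : I27} (h : j ≠ i) : (es i : I27 → F) j = 0 := Pi.single_eq_of_ne h _

theorem ge_es (i : I27) : Ge (deg i) (es i : I27 → F) := ge_single i

theorem ac_X' {r : ℕ} (hr : r < 72) (t : F) (v : I27 → F) (i : I27) :
    ac (X ⟨r, hr⟩ t) v i = v i + t * (sg r i * v (src r i)) := ac_X _ _ _ _

theorem ge_zero (x : I27 → F) : Ge 0 x := fun _ h => absurd h (Nat.not_lt_zero _)

theorem eq_of_ge {x : I27 → F} (h : Ge 2 x) : x = x top • es top := by
  ext i
  rcases deg_cases i with h1 | h1 | rfl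
  · simp [h i (by omega), ne_top (i := i) (by omega)]
  · simp [h i (by omega), ne_top (i := i) (by omega)]
  · simp

include hF hg in
theorem tri_of_diag8 (h1 : ac g (es top) = es top) (h2 : ∀ x, Ge 1 x → Ge 1 (ac g x))
    (h3 : ∀ j, j ≠ .inl 4 → j ≠ .inr 4 →
      ∃ c : F, c ≠ 0 ∧ Ge 1 (ac g (es (pA j)) - c • es (pA j))) (μ ν : I27) (hne : ν ≠ μ)
    (hle : deg ν ≤ deg μ) : ac g (es μ) ν = 0 := by
  have h4 : ∀ μ, deg μ = 1 → Ge 1 (ac g (es μ)) := fun μ h => h2 _ (h ▸ ge_single μ)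
  have h5 : ∀ μ, deg μ = 1 → Ge 2 (ac g (es μ) - ac g (es μ) μ • es μ) := fun μ hμ ν hν => by
    by_cases e : ν = μ
    · simp [e]
    rw [Pi.sub_apply, Pi.smul_apply, es_ne e, smul_zero, sub_zero]
    by_cases e1 : deg ν = 0
    · exact h4 μ hμ ν (by omega)
    obtain ⟨j, a1, a2, a3, a4, a5, a6⟩ := c5 μ ν hμ (by omega) e
    obtain ⟨c, hc, a7⟩ := h3 j a1 a2
    have := tri_ac hF hg (es (pA j)) (ac g⁻¹ (es (crj (pA j) ν))) (es μ)
    rw [tri_ss, a3, ac_inv, ← add_sub_cancel (c • es (pA j)) (ac g (es (pA j))), tri_add,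
      tri_of_ge a7 (a4 ▸ ge_single _) (h4 μ hμ) (by omega), tri_smul, tri_swap', tri_ss, a5] at this
    simpa [hc, cast_ne a6] using this
  have h6 : ∀ μ, deg μ = 1 → ∃ d a : F, d ≠ 0 ∧ ac g (es μ) = d • es μ + a • es top := fun μ hμ => by
    have := eq_of_ge (h5 μ hμ)
    rw [sub_eq_iff_eq_add'] at this
    refine ⟨_, _, fun h => ?_, this⟩
    rw [h, zero_smul, zero_add, ← h1, ← mulVec_smul] at this
    have := congrArg (fun v => ac g⁻¹ v μ) this
    simp only [inv_ac] at this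
    simp [ne_top (i := μ) (by omega)] at this
  rcases deg_cases μ with hμ | hμ | rfl
  · obtain ⟨i, k, a1, a2, a3, a4⟩ := c6 ν (by omega)
    obtain ⟨d, a, hd, e1⟩ := h6 i a1
    obtain ⟨d', a', hd', e2⟩ := h6 k a2
    have := tri_ac hF hg (es i) (es μ) (es k)
    rw [e1, e2] at this
    simp only [tri_add, tri_add₃, tri_smul, tri_smul₃, tri_ss, a3, (crs_top i (by omega)).1,
      (crs_top k (by omega)).2, (crs_top top (by simp [deg_top])).1] at this
    simpa [hd, hd', cast_ne a4, hne] using this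
  · simpa [hne] using h5 μ hμ ν (by omega)
  · rw [h1]; simp [hne]

theorem ac_diag {d : I27 → F} (h : ∀ i, ac g (es i) = d i • es i) (y : I27 → F) (j : I27) :
    ac g y j = d j * y j := by
  conv_lhs => rw [pi_eq_sum_univ' y, ac, mulVec_sum]
  simp only [mulVec_smul, h, Finset.sum_apply, Pi.smul_apply, smul_eq_mul]
  rw [Finset.sum_eq_single j (fun i _ e => by simp [e.symm]) (by simp)]
  simp [mul_comm]

/-- unitriangular with respect to the degree -/
def UT (g : GL I27 F) : Prop := ∀ μ ν, deg ν ≤ deg μ → ac g (es μ) ν = es μ ν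

include hF hg in
theorem exists_UT (h : ∀ μ ν, ν ≠ μ → deg ν ≤ deg μ → ac g (es μ) ν = 0) :
    ∃ a ∈ G0 F, UT (a * g) := by
  have h1 : ∀ μ, Ge (deg μ) (ac g (es μ)) := fun μ ν e => h μ ν (by rintro rfl; omega) e.le
  have h2 : ∀ μ, Ge (deg μ + 1) (ac g (es μ) - ac g (es μ) μ • es μ) := fun μ ν e => by
    by_cases e1 : ν = μ
    · simp [e1]
    · rw [Pi.sub_apply, h μ ν e1 (by omega)]; simp [e1]
  have h3 : ∀ i k, crs i k ≠ 0 →
      ac g (es i) i * ac g (es (crj i k)) (crj i k) * ac g (es k) k = 1 := fun i k e => by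
    have a1 := deg_cr i k e
    have := tri_ac hF hg (es i) (es (crj i k)) (es k)
    rw [← add_sub_cancel (ac g (es i) i • es i) (ac g (es i)), tri_add,
      tri_of_ge (h2 i) (h1 _) (h1 k) (by omega), tri_smul,
      ← add_sub_cancel (ac g (es k) k • es k) (ac g (es k)), tri_add₃,
      tri_of_ge (ge_single i) (h1 _) (h2 k) (by omega), tri_smul₃, tri_ss, tri_ss,
      es_same] at this
    refine mul_left_cancel₀ (cast_ne (crs_sq i k e)) ?_
    linear_combination this
  have h4 : ∀ i, ac g (es i) i ≠ 0 := fun i => by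
    obtain ⟨k, e⟩ := exists_crs i
    exact left_ne_zero_of_mul (left_ne_zero_of_mul_eq_one (h3 i k e))
  obtain ⟨a, ha, h5⟩ := inv_mem (RD_le (show (fun i => Units.mk0 _ (h4 i)) ∈ RD F from
    fun i k e => Units.ext (h3 i k e)))
  refine ⟨a, ha, fun μ ν e => ?_⟩
  rw [ac_mul, ac_diag h5]
  by_cases e1 : ν = μ
  · subst e1; simpa using inv_mul_cancel₀ (h4 ν)
  · rw [h μ ν e1 e]; simp [e1]

theorem exists_UT' (h : UT g) (s : Finset I27) : ∃ a ∈ G0 F, UT (a * g) ∧
    ∀ μ ∈ s, deg μ = 1 → ac (a * g) (es μ) top = 0 := by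
  induction s using Finset.induction_on with
  | empty => exact ⟨1, one_mem _, by simpa using h⟩
  | insert μ s hμ ih =>
    obtain ⟨a, ha, h1, h2⟩ := ih
    by_cases h0 : deg μ = 1
    swap
    · exact ⟨a, ha, h1, by simpa [h0] using h2⟩
    obtain ⟨r, hr, h3, h4, h5⟩ := c8 μ h0
    refine ⟨_, mul_mem (X_mem_G0 hr (-(sg r top * ac (a * g) (es μ) top))) ha, fun i j e => ?_,
      fun i hi h6 => ?_⟩
    · rw [mul_assoc, ac_mul, ac_X', h1 i j e]
      by_cases e1 : sg r j = 0
      · simp [e1]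
      have := h5 j e1
      rw [h1 i (src r j) (by omega), ge_es i (src r j) (by omega)]; simp
    rw [mul_assoc, ac_mul, ac_X', h3, h1 i μ (by omega)]
    rcases Finset.mem_insert.mp hi with rfl | hi
    · rw [es_same]
      linear_combination (-ac (a * g) (es i) top) * cast_sq (F := F) h4
    · rw [h2 i hi h6, es_ne (show μ ≠ i from fun e => hμ (e ▸ hi))]; simp

include hF hg in
theorem eq_one_of_UT (h : UT g) (h' : ∀ μ, deg μ = 1 → ac g (es μ) top = 0) : g = 1 := by
  have h1 : ∀ μ, deg μ ≠ 0 → ac g (es μ) = es μ := fun μ hμ => funext fun ν => by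
    rcases deg_cases ν with e | e | rfl
    · exact h μ ν (by omega)
    · exact h μ ν (by omega)
    rcases deg_cases μ with e | e | rfl
    · exact absurd e hμ
    · rw [h' μ e, es_ne (ne_top (i := μ) (by omega)).symm]
    · exact h _ _ le_rfl
  have h2 : ∀ b, deg b = 0 → Ge 1 (ac g (es b) - es b) := fun b hb ν e => by
    rw [Pi.sub_apply, h b ν (by omega), sub_self]
  have h3 : ∀ b, deg b = 0 → Ge 2 (ac g (es b) - es b) := fun b hb ν e => by
    by_cases e1 : deg ν = 0
    · exact h2 b hb ν (by omega)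
    obtain ⟨b', a1, a2, a3, a4, a5⟩ := c9 b ν hb (by omega)
    have := tri_ac hF hg (es b') (es b) (es (crj b' ν))
    rw [h1 (crj b' ν) (by omega), ← add_sub_cancel (es b') (ac g (es b')),
      ← add_sub_cancel (es b) (ac g (es b)), tri_add, tri_add₂, tri_add₂,
      tri_of_ge (h2 b' a1) (h2 b hb) (a2 ▸ ge_single _) (by omega), tri_swap _ (_ - _), tri_ss,
      tri_ss, tri_ss, a3, a5] at this
    simpa [cast_ne (crs_sq _ _ a4)] using this
  refine gl_ext fun b => ?_
  rw [ac_one]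
  by_cases hb : deg b = 0
  swap
  · exact h1 b hb
  obtain ⟨i, k, a1, a2, a3, a4, a5, a6, a7, a8⟩ := c10 b hb
  have e1 := eq_of_ge (h3 i a1)
  have e2 := eq_of_ge (h3 k a2)
  have e3 := eq_of_ge (h3 b hb)
  rw [sub_eq_iff_eq_add'] at e1 e2
  have := tri_ac hF hg (es i) (es b) (es k)
  rw [e1, e2] at this
  simp only [tri_add, tri_add₃, tri_smul, tri_smul₃, tri_ss, a3, h b _ (a6.trans hb.symm).le,
    h b _ (a8.trans hb.symm).le, es_ne a5, es_ne a7,
    (crs_top top (by simp [deg_top])).1] at this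
  rw [← sub_eq_zero, e3, Pi.sub_apply, sub_eq_zero.mpr, zero_smul]
  exact mul_left_cancel₀ (cast_ne (crs_sq _ _ a4)) (by simpa using this)

include hF in
theorem E6univ_eq : E6univ F = G0 F := by
  refine le_antisymm (fun g hg => ?_) G0_le
  obtain ⟨a, ha, h1, h2, h3⟩ := exists_diag8 hF hg
  have hg1 := mul_mem (G0_le ha) hg
  obtain ⟨b, hb, h4⟩ := exists_UT hF hg1 (tri_of_diag8 hF hg1 h1 h2 h3)
  obtain ⟨c, hc, h5, h6⟩ := exists_UT' h4 Finset.univ
  have := eq_one_of_UT hF (mul_mem (G0_le hc) (mul_mem (G0_le hb) hg1)) h5 fun μ => h6 μ (by simp)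
  rw [← mul_assoc, ← mul_assoc] at this
  rw [eq_inv_of_mul_eq_one_right this]
  exact inv_mem (mul_mem (mul_mem hc hb) ha)

theorem center_ne : Subgroup.center (E6univ F) ≠ ⊤ := fun h => by
  have := Subgroup.mem_center_iff.mp (h ▸ Subgroup.mem_top _ :
    (⟨_, X_mem ⟨56, by decide⟩ 1⟩ : E6univ F) ∈ Subgroup.center _) ⟨_, X_mem ⟨15, by decide⟩ 1⟩
  have := congrArg (fun a : E6univ F => ac a.1 (es top) top) this
  simp only [Subgroup.coe_mul, ac_mul, ac_X, show sg 15 top = 0 by decide +kernel,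
    show sg 56 top * sg 15 (src 56 top) = 1 → True from fun _ => trivial,
    show src 15 (src 56 top) = top by decide +kernel,
    es_ne (show src 56 top ≠ top by decide +kernel)] at this
  simp [cast_ne (show sg 56 top * sg 56 top = 1 by decide +kernel),
    cast_ne (show sg 15 (src 56 top) * sg 15 (src 56 top) = 1 by decide +kernel)] at this

include hF in
theorem iso_E6 (hs : IsSimpleGroup (chevE6.group F)) : Nonempty (E6 F ≃* chevE6.group F) := by
  letI := good2E6
  obtain ⟨e⟩ := (relAB_X (F := F)).iso_quot hs (E6univ_eq hF) center_ne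
  exact ⟨e.symm⟩

end Cfsg.Agent.Chev.E6
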