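import Mathlib
import Cfsg.Agent.Chev.SsF4a

/-! Powers of elements of the Weyl group of type `F₄`. -/

set_option autoImplicit false
set_option maxRecDepth 100000

namespace Cfsg.Agent.Chev
open Cfsg.Lie Cfsg.Agent.BN StSys Matrix

attribute [local instance] good2F4

theorem chkW_F4T : certF4.chkW chevF4 1152 wlF4 wnF4 (fun P =>
    allN 48 (fun r => Nat.beq (itB P 8 r) r) || allN 48 (fun r => Nat.beq (itB P 6 r) r) ||
    allN 48 (fun r => Nat.beq (itB P 6 r) (Cert.ng chevF4 r))) = true := by decide +kernel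

theorem f4t_W (w : W chevF4) : w ^ 8 = 1 ∨ w ^ 6 = 1 ∨ ∀ r : Rt chevF4, w ^ 6 • r = ng r := by
  obtain ⟨P, h1, hP⟩ := chkW_spec chkW_F4T w
  have h2 : ∀ e (r : Rt chevF4), ((w ^ e • r : Rt chevF4) : ℕ) = itB P e r := fun e r => by
    induction e with
    | zero => rfl
    | succ e ih => rw [pow_succ', mul_smul, hP, ih]; rfl
  simp only [Bool.or_eq_true, allN_iff, Nat.beq_eq] at h1
  rcases h1 with (h | h) | h
  · exact .inl (W_ext fun r => Fin.ext ((h2 8 r).trans (h r r.2)))
  · exact .inr (.inl (W_ext fun r => Fin.ext ((h2 6 r).trans (h r r.2))))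
  · exact .inr (.inr fun r => Fin.ext ((h2 6 r).trans ((h r r.2).trans (ng_val' r).symm)))

end Cfsg.Agent.Chev
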