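import Mathlib
import Cfsg.Agent.Chev.F4W
import Cfsg.Agent.Chev.Ss
import Cfsg.Agent.Chev.Smith
import Cfsg.Agent.S1062

/-! The split torus of `F₄(q)` and the action of its normalizer. -/

set_option autoImplicit false
set_option maxRecDepth 100000

namespace Cfsg.Agent.Chev
open Cfsg.Lie Cfsg.Agent.BN StSys Matrix

attribute [local instance] good2F4

section
variable {D : ChevalleyDatum} [g : Good2 D] {F : Type*} [Field F]

theorem f4t_act {G : Type*} [Group G] {S : StSys D F G} {y : G} (hy : y ∈ S.grp) :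
    ∃ n ∈ S.N, ∀ s ∈ S.H, y * s * y⁻¹ ∈ S.H → y * s * y⁻¹ = n * s * n⁻¹ := by
  obtain ⟨w, hw⟩ := exists_cell hy
  obtain ⟨u, hu, a, ha, hm, v, hv, rfl⟩ := exists_normal' hw
  refine ⟨a, ha, fun s hs hs' => ?_⟩
  set s' := u * a * v * s * (u * a * v)⁻¹ with e
  have := (normal_unique' hu (H_conj_mem hs' hu) (mul_mem ha (S.H_le_N hs))
    (mul_mem (S.H_le_N hs') ha) (by simpa using hm.mul (mono_of_mem_H hs))
    (by simpa using (mono_of_mem_H hs').mul hm) (H_conj_mem' hs hv) hv (by rw [e]; group)).2.1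
  rw [eq_mul_inv_iff_mul_eq, this]

theorem f4t_pow {G : Type*} [Group G] {S : StSys D F G} {a : G} {w : W D} (h : S.Mono a w) (k : ℕ) :
    S.Mono (a ^ k) (w ^ k) := by
  induction k with
  | zero => simpa using Mono.one
  | succ k ih => rw [pow_succ, pow_succ]; exact ih.mul h

theorem f4t_inv {a s : GL D.Idx F} (ha : a ∈ (glSys D F).N) {w : W D} (hm : (glSys D F).Mono a w)
    (hw : ∀ r : Rt D, w • r = ng r) (hs : s ∈ (glSys D F).H) : a * s * a⁻¹ = s⁻¹ := by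
  obtain ⟨c, rfl⟩ := gl_R3.exists_hT hs
  rw [gl_hT]
  generalize pw Fˣ (cartanM D) c = d
  have h := conj_dgU ha hm d⁻¹
  simp only [hw, co_ng, tor_neg, co_sim, tor_single, Pi.inv_apply, inv_inv] at h
  rw [← dgH_apply d⁻¹, map_inv, dgH_apply] at h
  change _ = dgU d at h
  calc a * dgU d * a⁻¹ = a * (a⁻¹ * (dgU d)⁻¹ * a) * a⁻¹ := by rw [h]
    _ = _ := by group

theorem f4t_emb {K : Type*} [Field K] (ι : F →+* K) :
    ∃ j : D.group F →* D.group K, Function.Injective j :=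
  ⟨(fieldMor D ι).f, fun a b h => Subtype.ext (Units.ext (Matrix.map_injective ι.injective
    ((fieldMor_val ι a).symm.trans ((congrArg (fun z : D.group K => ((z : GL D.Idx K) : Matrix D.Idx D.Idx K)) h).trans
      (fieldMor_val ι b)))))⟩
end

theorem f4_facts (F : Type*) [Field F] [Fintype F] : ∃ T : Subgroup (chevF4.group F),
    (∀ a ∈ T, ∀ b ∈ T, a * b = b * a) ∧ Nat.card T = (Fintype.card F - 1) ^ 4 ∧
    ∀ y : chevF4.group F, ∃ n : chevF4.group F,
      (∀ s ∈ T, y * s * y⁻¹ ∈ T → y * s * y⁻¹ = n * s * n⁻¹) ∧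
      ((∀ s ∈ T, n ^ 8 * s * (n ^ 8)⁻¹ = s) ∨ (∀ s ∈ T, n ^ 6 * s * (n ^ 6)⁻¹ = s) ∨
        (∀ s ∈ T, n ^ 6 * s * (n ^ 6)⁻¹ = s⁻¹)) := by
  have hle : (glSys chevF4 F).N ≤ chevF4.group F := (glSys chevF4 F).N_le_grp.trans group_eq.ge
  refine ⟨(glSys chevF4 F).H.subgroupOf _, fun a ha b hb => Subtype.ext (gl_H_comm _ ha _ hb), ?_,
    fun y => ?_⟩
  · have h := card_gl_H (D := chevF4) (F := F)
    rw [card_ker_F4, one_mul, diagonalSubgroup_eq, Nat.card_eq_fintype_card (α := F)] at h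
    exact (Nat.card_congr (Subgroup.subgroupOfEquivOfLe
      ((glSys chevF4 F).H_le_N.trans hle)).toEquiv).trans h
  · obtain ⟨n, hn, h⟩ := f4t_act (S := glSys chevF4 F) (group_eq.le y.2)
    obtain ⟨w, hw⟩ := exists_mono hn
    have h1 : ∀ k : ℕ, w ^ k = 1 → ∀ s ∈ (glSys chevF4 F).H.subgroupOf (chevF4.group F),
        (⟨n, hle hn⟩ : chevF4.group F) ^ k * s * ((⟨n, hle hn⟩ : chevF4.group F) ^ k)⁻¹ = s :=
      fun k e s hs => Subtype.ext (mul_inv_eq_iff_eq_mul.2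
        (gl_H_comm _ (mem_H_of_mono (pow_mem hn k) (e ▸ f4t_pow hw k)) _ hs))
    refine ⟨⟨n, hle hn⟩, fun s hs hs' => Subtype.ext (h s hs hs'), ?_⟩
    rcases f4t_W w with e | e | e
    · exact .inl (h1 8 e)
    · exact .inr (.inl (h1 6 e))
    · exact .inr (.inr fun s hs => Subtype.ext (f4t_inv (pow_mem hn 6) (f4t_pow hw 6) e hs))

theorem f4_emb (F K : Type*) [Field F] [Field K] [Algebra F K] :
    ∃ j : chevF4.group F →* chevF4.group K, Function.Injective j := f4t_emb (algebraMap F K)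

theorem f4_idx {F : Type*} [Field F] [Fintype F] {T : Subgroup (chevF4.group F)}
    (hT : Nat.card T = (Fintype.card F - 1) ^ 4) {l : ℕ} (hl : l.Prime) (h5 : 5 ≤ l)
    (h : l ∣ Fintype.card F - 1) : ¬ l ∣ T.index := by
  have h1 := T.card_mul_index
  rw [hT, S1062.result rfl] at h1
  obtain ⟨t, ht⟩ : ∃ t, Fintype.card F = t + 1 := ⟨Fintype.card F - 1, by
    have := Fintype.card_pos (α := F); omega⟩
  have ht1 : 0 < t := by
    have := Fintype.one_lt_card (α := F); omega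
  have h4 : ∀ k, (t + 1) ^ k - 1 = t * ∑ i ∈ Finset.range k, (t + 1) ^ i := fun k => by
    rw [← geom_sum_mul_add, Nat.add_sub_cancel, mul_comm]
  rw [ht, Nat.add_sub_cancel] at h h1
  rw [h4, h4, h4, h4] at h1
  generalize T.index = m at h1 ⊢
  have h2 : m = (t + 1) ^ 24 * (∑ i ∈ Finset.range 2, (t + 1) ^ i) *
      (∑ i ∈ Finset.range 6, (t + 1) ^ i) * (∑ i ∈ Finset.range 8, (t + 1) ^ i) *
      (∑ i ∈ Finset.range 12, (t + 1) ^ i) :=
    Nat.eq_of_mul_eq_mul_left (pow_pos ht1 4) (by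
      rw [h1]
      generalize (t + 1) ^ 24 = a, ∑ i ∈ Finset.range 2, (t + 1) ^ i = b,
        ∑ i ∈ Finset.range 6, (t + 1) ^ i = c, ∑ i ∈ Finset.range 8, (t + 1) ^ i = d,
        ∑ i ∈ Finset.range 12, (t + 1) ^ i = e
      ring)
  intro hd
  have h3 : ((m : ℕ) : ZMod l) = (1152 : ℕ) := by
    rw [h2]
    simp only [Nat.cast_mul, Nat.cast_pow, Nat.cast_sum, Nat.cast_add, Nat.cast_one,
      (ZMod.natCast_eq_zero_iff t l).2 h, zero_add, one_pow, Finset.sum_const, Finset.card_range,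
      nsmul_eq_mul, mul_one, one_mul]
    norm_num
  rw [(ZMod.natCast_eq_zero_iff _ l).2 hd, eq_comm, ZMod.natCast_eq_zero_iff,
    show 1152 = 2 ^ 7 * 3 ^ 2 by norm_num, hl.dvd_mul] at h3
  rcases h3 with h3 | h3 <;> have := Nat.le_of_dvd (by norm_num) (hl.dvd_of_dvd_pow h3) <;> omega

end Cfsg.Agent.Chev
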