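import Mathlib
import Cfsg.Agent.Chev.Tori3

/-! Homocyclic Sylow subgroups inside twisted tori. -/

set_option autoImplicit false
set_option linter.unusedSectionVars false
set_option maxHeartbeats 400000

namespace Cfsg.Agent.Chev
open Cfsg.Lie Cfsg.Agent.BN StSys Matrix Multiplicative Polynomial

section NT
variable {r q : ℕ} [hr : Fact r.Prime]

theorem dvd_pow_sub_one_iff (hq : 0 < q) (e : ℕ) : r ∣ q ^ e - 1 ↔ orderOf (q : ZMod r) ∣ e := by
  rw [orderOf_dvd_iff_pow_eq_one, ← ZMod.natCast_eq_zero_iff, Nat.cast_sub (Nat.one_le_pow e q hq),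
    sub_eq_zero, Nat.cast_pow, Nat.cast_one]

theorem orderOf_zmod_pos (hrq : ¬ r ∣ q) : 0 < orderOf (q : ZMod r) :=
  (isOfFinOrder_iff_pow_eq_one.mpr ⟨r - 1, Nat.sub_pos_of_lt hr.out.one_lt,
    ZMod.pow_card_sub_one_eq_one (mt (ZMod.natCast_eq_zero_iff q r).mp hrq)⟩).orderOf_pos

theorem padicVal_pow_sub_one (h2 : r ≠ 2) (hq : 1 < q) (hrq : ¬ r ∣ q) {e : ℕ} (he : ¬ r ∣ e) :
    padicValNat r (q ^ e - 1) = if orderOf (q : ZMod r) ∣ e then
      padicValNat r (q ^ orderOf (q : ZMod r) - 1) else 0 := by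
  split_ifs with h
  · obtain ⟨k, rfl⟩ := h
    have h1 := padicValNat.pow_sub_pow (hr.out.odd_of_ne_two h2) (y := 1)
      (Nat.one_lt_pow (orderOf_zmod_pos hrq).ne' hq) ((dvd_pow_sub_one_iff (by omega) _).mpr dvd_rfl)
      (mt hr.out.dvd_of_dvd_pow hrq) (n := k) (by rintro rfl; simp at he)
    rw [one_pow] at h1
    rw [pow_mul, h1, padicValNat.eq_zero_of_not_dvd (mt (·.mul_left _) he), add_zero]
  · exact padicValNat.eq_zero_of_not_dvd (mt (dvd_pow_sub_one_iff (by omega) _).mp h)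

theorem padicVal_prod (h2 : r ≠ 2) (hq : 1 < q) (hrq : ¬ r ∣ q) {l : List ℕ} (hl : ¬ r ∣ l.prod) :
    (l.map (q ^ · - 1)).prod ≠ 0 ∧ padicValNat r (l.map (q ^ · - 1)).prod =
      (l.filter (orderOf (q : ZMod r) ∣ ·)).length * padicValNat r (q ^ orderOf (q : ZMod r) - 1) := by
  induction l with
  | nil => simp
  | cons e l ih =>
    rw [List.prod_cons] at hl
    obtain ⟨h3, h4⟩ := ih (mt (·.mul_left _) hl)
    have h5 : ¬ r ∣ e := mt (·.mul_right _) hl
    have h6 : q ^ e - 1 ≠ 0 :=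
      Nat.sub_ne_zero_of_lt (Nat.one_lt_pow (by rintro rfl; simp at h5) hq)
    rw [List.map_cons, List.prod_cons, padicValNat.mul h6 h3, h4, padicVal_pow_sub_one h2 hq hrq h5,
      List.filter_cons]
    refine ⟨mul_ne_zero h6 h3, ?_⟩
    split_ifs <;> simp_all [add_mul, add_comm]

theorem padicVal_cyclotomic (hq : 1 < q) (hrq : ¬ r ∣ q) :
    padicValNat r ((cyclotomic (orderOf (q : ZMod r)) ℤ).eval (q : ℤ)).natAbs =
      padicValNat r (q ^ orderOf (q : ZMod r) - 1) := by
  have h1 : ∀ {e}, 0 < e → ∏ i ∈ e.divisors, ((cyclotomic i ℤ).eval (q : ℤ)).natAbs = q ^ e - 1 :=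
    fun {e} he => by
      have := congrArg (fun P => (eval (q : ℤ) P).natAbs) (prod_cyclotomic_eq_X_pow_sub_one he ℤ)
      simp only [eval_prod, eval_sub, eval_pow, eval_X, eval_one] at this
      rw [← Int.natAbs_natCast (q ^ e - 1), Nat.cast_sub (Nat.one_le_pow e q (by omega)),
        Nat.cast_pow, Nat.cast_one, ← this]
      exact (map_prod Int.natAbsHom _ _).symm
  have hd := orderOf_zmod_pos hrq
  have h2 := h1 hd
  rw [← Nat.cons_self_properDivisors hd.ne', Finset.prod_cons] at h2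
  have h3 := mul_ne_zero_iff.mp (h2.trans_ne (Nat.sub_ne_zero_of_lt (Nat.one_lt_pow hd.ne' hq)))
  rw [← h2, padicValNat.mul h3.1 h3.2, padicValNat.eq_zero_of_not_dvd (n := ∏ _ ∈ _, _), add_zero]
  intro h
  obtain ⟨e, he, h4⟩ := (hr.out.prime.dvd_finset_prod_iff _).mp h
  have h5 := Nat.pos_of_mem_properDivisors he
  exact absurd (Nat.le_of_dvd h5 ((dvd_pow_sub_one_iff (by omega) e).mp (h4.trans (h1 h5 ▸
    Finset.dvd_prod_of_mem _ (Nat.mem_divisors_self e h5.ne'))))) (Nat.mem_properDivisors.mp he).2.not_ge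

end NT

noncomputable section
/-- iterated differences -/
def dls (E : List ℕ) (h : ℕ → ℤ) : ℕ → ℤ := List.rec h (fun e _ ih j => ih (j + e) - ih j) E

def Cert.chkHomo (c : Cert) (D : ChevalleyDatum) (W n d : ℕ)
    (e : List ℕ × List ℕ × List (List ℤ) × ℤ × List ℕ) : Bool :=
  lall e.1 (Nat.blt · D.rank) && ieq ((W : ℤ) % e.2.2.2.1) 0 &&
  lall e.2.2.2.2 (fun a => Nat.blt 0 a && Nat.blt a d) &&
  allN n fun t => force (e.2.1.getD t 0) fun ρ => Nat.blt ρ D.nroots &&
    Nat.beq (c.iterW e.1 d ρ) ρ && allN n fun s => allN d fun j => ieq (dls e.2.2.2.2 (fun j =>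
      force (c.iterW e.1 (j % d) ρ) fun β =>
        sumN D.rank (fun i => ent2 e.2.2.1 s i * c.cpr D β (D.simple i)) -
          if s = t ∧ j % d = 0 then e.2.2.2.1 else 0) j) 0
end

theorem sum_eq_zero_of_dls {R : Type*} [CommRing R] {ζ : R} {d : ℕ} (hd : ζ ^ d = 1) {h : ℕ → ℤ}
    (hp : ∀ j, h (j + d) = h j) {E : List ℕ} (hE : ∀ e ∈ E, IsUnit (ζ ^ e - 1)) :
    (∀ j, dls E h (j + d) = dls E h j) ∧ (∑ j ∈ Finset.range d, ζ ^ j * dls E h j = 0 →
      ∑ j ∈ Finset.range d, ζ ^ j * h j = 0) := by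
  induction E with
  | nil => exact ⟨hp, id⟩
  | cons e E ih =>
    obtain ⟨h1, h2⟩ := ih fun e he => hE e (by simp [he])
    have h3 : ∀ j, dls (e :: E) h j = dls E h (j + e) - dls E h j := fun _ => rfl
    refine ⟨fun j => by rw [h3, h3, add_right_comm, h1, h1], fun h4 => h2 ?_⟩
    have h5 : ∀ e, ∑ j ∈ Finset.range d, ζ ^ (j + e) * dls E h (j + e) =
        ∑ j ∈ Finset.range d, ζ ^ j * dls E h j := fun e => by
      induction e with
      | zero => rfl
      | succ e ih =>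
        have := (Finset.sum_range_succ (fun j => ζ ^ (j + e) * dls E h (j + e)) d).symm.trans
          (Finset.sum_range_succ' _ d)
        rw [add_comm d, h1, pow_add, hd, mul_one, zero_add, add_left_inj, ih] at this
        simpa only [add_right_comm _ 1, add_assoc] using this.symm
    refine (hE e (by simp)).mul_right_eq_zero.mp ?_
    have h6 := h5 e
    simp only [h3, Int.cast_sub, mul_sub, Finset.sum_sub_distrib, pow_add, mul_comm _ (ζ ^ e),
      mul_assoc, ← Finset.mul_sum] at h4 h6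
    linear_combination h6 - ζ ^ e * h4

variable {D : ChevalleyDatum} [g : Good2 D] {F : Type*} [Field F] {G : Type*} [Group G]

theorem pow_smul_val {w : W D} {l : List ℕ} (hw : ∀ ν : Rt D, ((w • ν : Rt D) : ℕ) = g.cert.appW l ν)
    (m : ℕ) (ν : Rt D) : ((w ^ m • ν : Rt D) : ℕ) = g.cert.iterW l m ν := by
  induction m with
  | zero => rw [pow_zero, one_smul]; rfl
  | succ m ih => rw [pow_succ', mul_smul, hw, ih]; exact (force_eq _ _).symm

theorem TwTor.exists_homo {S : StSys D F G} {h3 : S.R3} {m : Mor S S (Sym.one D)} {q : ℕ}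
    {w : W D} {a : G} (h : TwTor h3 m q w a) {Γ : Type*} [Group Γ] {j : Γ →* GL D.Idx F}
    (hj : IsFix m j) {R : Type} [CommRing R] {χ : Multiplicative R →* Fˣ}
    (hχ : Function.Injective χ) {d n : ℕ} (hd : (q : R) ^ d = 1) {ρ : Fin n → Rt D}
    (hρ : ∀ t, w ^ d • ρ t = ρ t) {L : Fin n → Ix D → ℤ} {N : R} (hN : IsUnit N)
    (hL : ∀ s t, ∑ j ∈ Finset.range d, (q : R) ^ j * (∑ i, L s i * pr (w ^ j • ρ t) (sim i) : ℤ) =
      if s = t then N else 0) :
    ∃ φ : (Fin n → Multiplicative R) →* Γ, Function.Injective φ := by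
  let u : Fin n → Ix D → R := fun t i => ∑ j ∈ Finset.range d, (q : R) ^ j * cv (w ^ j • ρ t) i
  let c : (Fin n → Multiplicative R) →* (Ix D → Fˣ) := MonoidHom.mk'
    (fun y i => χ (ofAdd (∑ t, toAdd (y t) * u t i))) fun y z => funext fun i => by
      simp [add_mul, Finset.sum_add_distrib]
  have h1 : ∀ A y k, pw Fˣ A (c y) k = χ (ofAdd (∑ t, toAdd (y t) * ∑ i, u t i * A i k)) :=
    fun A y k => by
      simp only [c, MonoidHom.mk'_apply, pw_apply, ← map_zpow, ← map_prod, ← ofAdd_zsmul,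
        ← ofAdd_sum, zsmul_eq_mul, Finset.mul_sum]
      rw [Finset.sum_comm]
      simp only [mul_comm, mul_left_comm, mul_assoc]
  have h2 : ∀ y, c y ∈ Tω F (fun r => w • (Sym.one D).p r) q := fun y => funext fun k => by
    have h4 : ∀ t, q * ∑ i, u t i * cvM (fun r => w • (Sym.one D).p r) i k = u t k := fun t => by
      have := (Finset.sum_range_succ (fun j => (q : R) ^ j * cv (w ^ j • ρ t) k) d).symm.trans
        (Finset.sum_range_succ' _ d)
      rw [hd, hρ, pow_zero, pow_zero, one_smul, add_left_inj] at this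
      simp only [u, this, Finset.sum_mul, Finset.mul_sum]
      rw [Finset.sum_comm]
      refine Finset.sum_congr rfl fun j _ => ?_
      simp [pow_succ', mul_smul, cv_smul w (w ^ j • ρ t), cvM, Finset.mul_sum, mul_assoc]
    change (pw Fˣ _ (c y) k) ^ q = c y k
    rw [h1, ← map_pow, ← ofAdd_nsmul, nsmul_eq_mul, Finset.mul_sum]
    simp only [mul_left_comm (q : R), h4]
    rfl
  let f := (S.θ.comp ((MulAut.conj a).toMonoidHom.comp h3.hT)).comp c
  have h5 : ∀ y, f y ∈ j.range := fun y => (hj.mem _).mpr ⟨_, h.fix_iff.mpr (h2 y), rfl⟩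
  refine ⟨(MonoidHom.ofInjective hj.inj).symm.toMonoidHom.comp (f.codRestrict _ h5),
    (MonoidHom.ofInjective hj.inj).symm.injective.comp ((f.injective_codRestrict _ h5).mpr
      ((injective_iff_map_eq_one f).mpr fun y hy => funext fun s => ?_))⟩
  have h6 : pw Fˣ (cartanM D) (c y) = 1 := by simpa [f, ← h3.θ_hT_eq_one] using hy
  have h7 : ∀ k, ∑ t, toAdd (y t) * ∑ i, u t i * cartanM D i k = 0 := fun k =>
    hχ ((h1 _ y k).symm.trans ((congrFun h6 k).trans χ.map_one.symm))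
  have h8 : ∀ t, ∑ k, L s k * ∑ i, u t i * cartanM D i k = if s = t then N else 0 := fun t => by
    simp only [← hL, u, Finset.sum_mul, Finset.mul_sum, pr, Int.cast_sum, Int.cast_mul, cartanM,
      of_apply]
    rw [eq_comm, Finset.sum_comm]
    refine Finset.sum_congr rfl fun k _ => Finset.sum_comm.trans ?_
    simp only [mul_left_comm, mul_assoc]
  have h9 : ∑ t, toAdd (y t) * (if s = t then N else 0) = 0 := by
    refine Eq.trans ?_ (Finset.sum_eq_zero fun k (_ : k ∈ Finset.univ) =>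
      mul_eq_zero_of_right (L s k : R) (h7 k))
    simp only [← h8, Finset.mul_sum]
    rw [Finset.sum_comm]
    simp only [mul_left_comm]
  exact hN.mul_left_eq_zero.mp (show toAdd (y s) * N = 0 by simpa using h9)

theorem homocyclic [Fintype F] (hk : (st_R3 (D := D) (F := AlgebraicClosure F)).hT.ker = ⊥)
    {l : List ℕ} (hl : ∀ t : ℤ, (t - 1) ^ D.rank * poin D t = (l.map (t ^ · - 1)).prod)
    {E : List (List ℕ × List ℕ × List (List ℤ) × ℤ × List ℕ)}
    (hE : (lall l (Nat.blt · 31) && Nat.beq (l.prod % 2) 0 && allN 31 fun d => g.cert.chkHomo D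
      l.prod (l.filter (d ∣ ·)).length d (E.getD d ([], [], [], 1, []))) = true)
    {q : ℕ} (hq : Fintype.card F = q) (r : ℕ) [hr : Fact r.Prime] (hrq : ¬ r ∣ q)
    (hrW : ¬ r ∣ l.prod) (P : Sylow r (D.group F)) : Nonempty ((P : Subgroup (D.group F)) ≃*
      (Fin (l.filter (fun e => orderOf (q : ZMod r) ∣ e)).length → Multiplicative (ZMod (r ^
        padicValNat r ((cyclotomic (orderOf (q : ZMod r)) ℤ).eval (q : ℤ)).natAbs)))) := by
  simp only [Bool.and_eq_true, lall_iff, allN_iff, Nat.blt_eq, Nat.beq_eq] at hE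
  have h1 : 1 < q := hq ▸ Fintype.one_lt_card
  have hd := orderOf_zmod_pos hrq
  obtain ⟨h2, h3⟩ := padicVal_prod (by rintro rfl; omega) h1 hrq hrW
  rw [padicVal_cyclotomic h1 hrq]
  have h4 := dvd_pow_sub_one_iff (r := r) (by omega : 0 < q)
  generalize orderOf (q : ZMod r) = d at *
  set v := padicValNat r (q ^ d - 1) with hv
  set n := (l.filter (d ∣ ·)).length with hn
  obtain ⟨φ, hφ⟩ : ∃ φ : (Fin n → Multiplicative (ZMod (r ^ v))) →* D.group F,
      Function.Injective φ := by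
    rcases Nat.eq_zero_or_pos n with h | h
    · rw [h]
      exact ⟨1, Function.injective_of_subsingleton _⟩
    obtain ⟨e, he⟩ := List.exists_mem_of_length_pos h
    simp only [List.mem_filter, decide_eq_true_eq] at he
    have h5 := hE.2 d ((Nat.le_of_dvd (Nat.pos_of_ne_zero fun e' => hrW (by
      rw [List.prod_eq_zero (e' ▸ he.1)]; simp)) he.2).trans_lt (hE.1.1 e he.1))
    generalize E.getD d _ = e at h5
    simp only [Cert.chkHomo, Bool.and_eq_true, lall_iff, allN_iff, Nat.blt_eq, Nat.beq_eq,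
      ieq_iff, force_eq] at h5
    obtain ⟨⟨⟨h6, h7⟩, h8⟩, h9⟩ := h5
    obtain ⟨m, j, hj, h10, h11⟩ := exists_fix (algebraMap F _) hk
    rw [hq] at h10 h11
    obtain ⟨a, ha⟩ := h11 (wp sW (e.1.pmap Fin.mk h6))
    have hw := pow_smul_val fun ν => wp_smul_val (e.1.pmap Fin.mk h6) ν
    rw [List.map_pmap, List.pmap_eq_map, List.map_id'] at hw
    haveI : NeZero (r : AlgebraicClosure F) := ⟨fun e' => by
      obtain ⟨x, y, hxy⟩ := (Nat.isCoprime_iff_coprime.mpr ((Nat.Prime.coprime_iff_not_dvd hr.out).mpr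
        hrq)).map (Int.castRingHom (AlgebraicClosure F))
      simp [e', h10] at hxy⟩
    obtain ⟨x, hx⟩ := HasEnoughRootsOfUnity.exists_primitiveRoot (AlgebraicClosure F) (r ^ v)
    lift x to (AlgebraicClosure F)ˣ using hx.isUnit (NeZero.ne _)
    rw [IsPrimitiveRoot.coe_units_iff] at hx
    have hu : ∀ z : ℤ, ¬ (r : ℤ) ∣ z → IsUnit (z : ZMod (r ^ v)) := fun z hz =>
      (ZMod.coe_int_isUnit_iff_isCoprime _ _).mpr (Nat.cast_pow (α := ℤ) r v ▸
        ((Nat.prime_iff_prime_int.mp hr.out).coprime_iff_not_dvd.mpr hz).pow_left)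
    have hζ : (q : ZMod (r ^ v)) ^ d = 1 := by
      have := (ZMod.natCast_eq_zero_iff _ _).mpr (pow_padicValNat_dvd (p := r) (n := q ^ d - 1))
      rwa [Nat.cast_sub (Nat.one_le_pow d q (by omega)), sub_eq_zero, Nat.cast_pow,
        Nat.cast_one] at this
    refine ha.exists_homo hj (χ := (Subgroup.subtype _).comp
      (AddEquiv.toMultiplicativeLeft hx.zmodEquivZPowers).toMonoidHom)
      (Subtype.val_injective.comp (MulEquiv.injective _)) hζ
      (ρ := fun t => ⟨_, (h9 t t.2).1.1⟩) (fun t => Fin.ext ((hw _ _).trans (h9 t t.2).1.2))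
      (L := fun s i => ent2 e.2.2.1 s i) (hu e.2.2.2.1 fun h => hrW (Int.natCast_dvd_natCast.mp
        (h.trans (Int.dvd_of_emod_eq_zero h7)))) fun s t => ?_
    have := (sum_eq_zero_of_dls hζ (fun j => ?_) (fun a ha => by
      simpa using hu (q ^ a - 1) fun h => absurd (Nat.le_of_dvd (h8 a ha).1 ((h4 a).mp
        (Int.natCast_dvd_natCast.mp (by rwa [Nat.cast_sub (Nat.one_le_pow a q (by omega)),
          Nat.cast_pow, Nat.cast_one])))) (h8 a ha).2.not_ge)).2 (Finset.sum_eq_zero fun j hj => by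
      rw [(h9 t t.2).2 s s.2 j (Finset.mem_range.mp hj), Int.cast_zero, mul_zero])
    on_goal 2 => simp only [Nat.add_mod_right]
    simp only [Int.cast_sub, mul_sub, Finset.sum_sub_distrib, sub_eq_zero] at this
    refine (Finset.sum_congr rfl fun j hj => ?_).trans (this.trans ?_)
    · simp only [Nat.mod_eq_of_lt (Finset.mem_range.mp hj), sumN_eq, ← cpr_eq, hw, sim_val]
    · rw [Finset.sum_eq_single 0 (fun j hj h0 => by
        simp [Nat.mod_eq_of_lt (Finset.mem_range.mp hj), h0]) (by simp [hd.ne'])]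
      simp [Fin.ext_iff]
  have h5 : Nat.card φ.range = r ^ (n * v) := by
    rw [← Nat.card_congr (MonoidHom.ofInjective hφ).toEquiv]
    simp [← pow_mul, mul_comm]
  obtain ⟨Q, hQ⟩ := (IsPGroup.of_card h5).exists_le_sylow
  have h6 : Nat.card (D.group F) ∣ q ^ (D.nroots / 2) * (l.map (q ^ · - 1)).prod :=
    Dvd.intro_left _ (Nat.cast_injective (R := ℤ) (card_gl_grp.trans (by
      simp [hl, hq, Function.comp_def, Nat.cast_sub (Nat.one_le_pow _ q (by omega))])))
  have h7 := (padicValNat_dvd_iff_le (p := r) (by positivity)).mp (pow_padicValNat_dvd.trans h6)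
  rw [padicValNat.mul (by positivity) h2, h3, padicValNat.eq_zero_of_not_dvd
    (mt hr.out.dvd_of_dvd_pow hrq), zero_add] at h7
  have h8 := Subgroup.eq_of_le_of_card_ge hQ (by
    rw [h5, Q.card_eq_multiplicity, Nat.factorization_def _ hr.out]
    exact Nat.pow_le_pow_right hr.out.pos h7)
  exact ⟨(P.equiv Q).trans ((MulEquiv.subgroupCongr h8).symm.trans (MonoidHom.ofInjective hφ).symm)⟩

end Cfsg.Agent.Chev
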